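/-
Unitriangular groups of degree four in characteristic two with few transvections.
-/
import Cfsg.Agent.Invol.Dihedral
import Mathlib.Algebra.CharP.Two
import Mathlib.Algebra.Group.MinimalAxioms
import Mathlib.Algebra.Field.Basic
import Mathlib.Tactic.Ring
import Mathlib.Tactic.LinearCombination

set_option autoImplicit false

namespace CF.D4.E1

open Subgroup
open scoped commutatorElement

/-- Coordinates of a unitriangular matrix. -/
@[ext] structure U6 (F : Type*) where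
  (α β γ a d c : F)

variable {F : Type*} [Field F]

namespace U6

instance : Mul (U6 F) := ⟨fun x y => ⟨x.α + y.α, x.β + y.β, x.γ + y.γ, x.a + y.a + x.α * y.β,
  x.d + y.d + x.β * y.γ, x.c + y.c + x.α * y.d + x.a * y.γ⟩⟩
instance : One (U6 F) := ⟨⟨0, 0, 0, 0, 0, 0⟩⟩
instance : Inv (U6 F) := ⟨fun x => ⟨-x.α, -x.β, -x.γ, x.α * x.β - x.a, x.β * x.γ - x.d,
  x.α * x.d + x.a * x.γ - x.α * x.β * x.γ - x.c⟩⟩

variable (x y : U6 F)
@[simp, grind =] theorem mα : (x * y).α = x.α + y.α := rfl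
@[simp, grind =] theorem mβ : (x * y).β = x.β + y.β := rfl
@[simp, grind =] theorem mγ : (x * y).γ = x.γ + y.γ := rfl
@[simp, grind =] theorem ma : (x * y).a = x.a + y.a + x.α * y.β := rfl
@[simp, grind =] theorem md : (x * y).d = x.d + y.d + x.β * y.γ := rfl
@[simp, grind =] theorem mc : (x * y).c = x.c + y.c + x.α * y.d + x.a * y.γ := rfl
@[simp, grind =] theorem oα : (1 : U6 F).α = 0 := rfl
@[simp, grind =] theorem oβ : (1 : U6 F).β = 0 := rfl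
@[simp, grind =] theorem oγ : (1 : U6 F).γ = 0 := rfl
@[simp, grind =] theorem oa : (1 : U6 F).a = 0 := rfl
@[simp, grind =] theorem od : (1 : U6 F).d = 0 := rfl
@[simp, grind =] theorem oc : (1 : U6 F).c = 0 := rfl
@[simp, grind =] theorem iα : x⁻¹.α = -x.α := rfl
@[simp, grind =] theorem iβ : x⁻¹.β = -x.β := rfl
@[simp, grind =] theorem iγ : x⁻¹.γ = -x.γ := rfl
@[simp, grind =] theorem ia : x⁻¹.a = x.α * x.β - x.a := rfl
@[simp, grind =] theorem id' : x⁻¹.d = x.β * x.γ - x.d := rfl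
@[simp, grind =] theorem ic : x⁻¹.c = x.α * x.d + x.a * x.γ - x.α * x.β * x.γ - x.c := rfl

instance : Group (U6 F) := .ofLeftAxioms (fun _ _ _ => by ext <;> simp <;> ring) (fun _ => by ext <;> simp)
  fun _ => by ext <;> simp <;> ring

/-- The second term of the central series. -/
def D : Prop := x.α = 0 ∧ x.β = 0 ∧ x.γ = 0

/-- The pairing. -/
def B : F := x.α * y.d + x.γ * y.a

/-- The centre. -/
def z (c : F) : U6 F := ⟨0, 0, 0, 0, 0, c⟩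

end U6

open U6

variable [CharP F 2]

theorem cm_D (x y : U6 F) : D ⁅x, y⁆ ∧ ⁅x, y⁆.a = x.α * y.β + y.α * x.β ∧ ⁅x, y⁆.d = x.β * y.γ + y.β * x.γ := by
  simp only [D, commutatorElement_def]; grind

theorem cm_B {x y : U6 F} (h : D y) : ⁅x, y⁆ = z (B x y) := by
  obtain ⟨a, b, c⟩ := h
  ext <;> simp only [commutatorElement_def, z, B] <;> grind

theorem sq_D (x : U6 F) : D (x * x) ∧ (x * x).a = x.α * x.β ∧ (x * x).d = x.β * x.γ := by
  simp only [D]; grind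

theorem D.mul {x y : U6 F} (h : D x) (k : D y) : D (x * y) ∧ (x * y).a = x.a + y.a ∧ (x * y).d = x.d + y.d := by
  simp only [D] at *; grind

/-- The hypotheses on a subgroup of class three. -/
structure Hp (P : Subgroup (U6 F)) (x0 y0 : U6 F) : Prop where
  x0P : x0 ∈ P
  cm : ∃ x ∈ P, ∃ y ∈ P, y0 = ⁅x, y⁆
  c0 : B x0 y0 ≠ 0
  rt : ∀ c, z c ∈ P → c = 0 ∨ c = B x0 y0
  uu : ∀ x ∈ P, D x → (x.a = 0 ↔ x.d = 0)

namespace Hp
variable {P : Subgroup (U6 F)} {x0 y0 x y : U6 F} (h : Hp P x0 y0)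
include h

omit h in
theorem cmP (hx : x ∈ P) (hy : y ∈ P) : ⁅x, y⁆ ∈ P := mul_mem (mul_mem (mul_mem hx hy) (inv_mem hx)) (inv_mem hy)

theorem y0P : y0 ∈ P ∧ D y0 := by
  obtain ⟨x, hx, y, hy, rfl⟩ := h.cm
  exact ⟨cmP hx hy, (cm_D x y).1⟩

theorem pair (hx : x ∈ P) (hy : y ∈ P) (d : D y) : B x y = 0 ∨ B x y = B x0 y0 := h.rt _ (cm_B d ▸ cmP hx hy)

theorem exb : ∃ b ∈ P, b.β ≠ 0 := by
  obtain ⟨x, hx, y, hy, rfl⟩ := h.cm
  by_contra! k
  have := h.c0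
  have := cm_D x y
  have := k x hx
  have := k y hy
  simp only [B] at *; grind

theorem αγ (hx : x ∈ P) : x.α = 0 ↔ x.γ = 0 := by
  obtain ⟨b, hb, b0⟩ := h.exb
  have := h.uu _ (mul_mem hx hx) (sq_D x).1
  have := h.uu _ (cmP hx hb) (cm_D x b).1
  have := sq_D x
  have := cm_D x b
  by_cases x.β = 0 <;> grind

theorem ex1 : ∃ x1 ∈ P, x1.α ≠ 0 ∧ B x1 y0 = 0 := by
  by_contra! k
  have k' : ∀ x ∈ P, x.γ * x0.α = x0.γ * x.α := fun x hx => by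
    have := h.pair hx h.y0P.1 h.y0P.2
    have := k x hx
    have := k _ (mul_mem hx h.x0P)
    have := h.αγ hx
    have := h.αγ (mul_mem hx h.x0P)
    simp only [B] at *; grind
  obtain ⟨x, hx, y, hy, rfl⟩ := h.cm
  have := h.c0
  have := cm_D x y
  have := k' x hx
  have := k' y hy
  simp only [B] at *; grind

theorem ey1 : ∃ y1 ∈ P, D y1 ∧ y1.a ≠ 0 ∧ B x0 y1 = 0 := by
  by_contra! k
  have k' : ∀ y ∈ P, D y → y.a * y0.d = y.d * y0.a := fun y hy d => by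
    have := h.pair h.x0P hy d
    have := k y hy d
    have m := D.mul d h.y0P.2
    have := k _ (mul_mem hy h.y0P.1) m.1
    have := h.uu _ hy d
    have := h.uu _ (mul_mem hy h.y0P.1) m.1
    simp only [B] at *; grind
  obtain ⟨b, hb, b0⟩ := h.exb
  have := h.c0
  have := k' _ (mul_mem hb hb) (sq_D _).1
  have := k' _ (mul_mem h.x0P h.x0P) (sq_D _).1
  have := k' _ (mul_mem (mul_mem hb h.x0P) (mul_mem hb h.x0P)) (sq_D _).1
  simp only [B, (sq_D _).2] at *; grind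

theorem s6 (hx : x ∈ P) (hy : y ∈ P) (d : D y) (e : B x y0 = 0) (f : B x0 y = 0) (a : x.α ≠ 0) (b : y.a ≠ 0) :
    B x y = B x0 y0 ∧ x.α * y.a = x0.α * y0.a := by
  have := h.pair hx hy d
  have := h.c0
  have : x0.α * y0.a * B x y = x.α * y.a * B x0 y0 := by simp only [B] at *; grind
  grind

theorem frame : ∃ x1 ∈ P, ∃ b : F, b ≠ 0 ∧ x0.α ≠ 0 ∧ x1.α ≠ 0 ∧ x0.α ≠ x1.α ∧ y0.a = b * x1.α ∧
    (∀ x ∈ P, x.α = 0 ∨ x.α = x0.α ∨ x.α = x1.α ∨ x.α = x0.α + x1.α) ∧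
    (∀ y ∈ P, D y → ∃ x ∈ P, y.a = b * x.α) ∧ ∀ x ∈ P, x.β = 0 ∨ x.β = b := by
  obtain ⟨x1, p1, a1, e1⟩ := h.ex1
  obtain ⟨y1, q1, d1, b1, f1⟩ := h.ey1
  obtain ⟨q0, d0⟩ := h.y0P
  have p0 := h.x0P
  have c0 := h.c0
  have s := h.s6 p1 q1 d1 e1 f1 a1 b1
  have a0 : x0.α ≠ 0 := by grind
  obtain ⟨b, hb⟩ : ∃ b, y1.a = b * x0.α := ⟨y1.a / x0.α, by field_simp⟩
  have hb' : y0.a = b * x1.α := by grind
  have kx : ∀ x ∈ P, B x y0 = 0 → x.α = 0 ∨ x.α = x1.α := fun x hx e => by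
    have := h.s6 hx q1 d1 e f1; grind
  have ky : ∀ y ∈ P, D y → B x0 y = 0 → y.a = 0 ∨ y.a = y1.a := fun y hy d e => by
    have := h.s6 p1 hy d e1 e; grind
  have s7 : ∀ x ∈ P, ∀ y ∈ P, D y → B x y = 0 → x.α ≠ 0 → y.a ≠ 0 → y.a = b * x.α := fun x hx y hy d e a a' => by
    have m := D.mul d d0
    have hx' := mul_mem hx p0
    have hy' := mul_mem hy q0
    have n1 : B (x * x0) y0 = B x y0 + B x0 y0 := by simp only [B]; grind
    have n2 : B x0 (y * y0) = B x0 y + B x0 y0 := by simp only [B]; grind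
    have n3 : B x (y * y0) = B x y + B x y0 := by simp only [B]; grind
    have n4 : B (x * x0) y = B x y + B x0 y := by simp only [B]; grind
    have n5 : B (x * x0) (y * y0) = B x y + B x y0 + B x0 y + B x0 y0 := by simp only [B]; grind
    rcases h.pair hx q0 d0 with u | u <;> rcases h.pair p0 hy d with v | v
    · have := h.s6 hx hy d; grind
    · have := h.s6 hx hy' m.1; have := kx x hx; grind
    · have := h.s6 hx' hy d; have := ky y hy d; grind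
    · have := kx _ hx'
      have := ky _ hy' m.1
      have : (x * x0).α ≠ 0 := fun k => by have := (h.αγ hx').1 k; simp only [B] at *; grind
      have : (y * y0).a ≠ 0 := fun k => by have := (h.uu _ hy' m.1).1 k; simp only [B] at *; grind
      grind
  have kb : ∀ x ∈ P, x.α ≠ 0 → x.β = 0 ∨ x.β = b := fun x hx a => by
    have := s7 x hx _ (mul_mem hx hx) (sq_D x).1 (by simp only [B, (sq_D x).2]; grind) a
    rw [(sq_D x).2.1] at this
    exact or_iff_not_imp_left.2 fun k => mul_left_cancel₀ a ((this (mul_ne_zero a k)).trans (mul_comm ..))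
  refine ⟨x1, p1, b, by grind, a0, a1, fun e => ?_, hb', fun x hx => ?_, fun y hy d => ?_, fun x hx => ?_⟩
  · have := h.αγ (mul_mem p0 p1); simp only [B] at *; grind
  · have := h.pair hx q0 d0
    have := kx x hx
    have := kx _ (mul_mem hx p0)
    have : B (x * x0) y0 = B x y0 + B x0 y0 := by simp only [B]; grind
    clear kx ky s7 kb; grind
  · have m := D.mul d d0
    rcases h.pair p0 hy d with v | v
    · exact (ky y hy d v).elim (fun k => ⟨1, one_mem _, by grind⟩) fun k => ⟨_, p0, by grind⟩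
    · exact (ky _ (mul_mem hy q0) m.1 (by simp only [B] at *; grind)).elim (fun k => ⟨_, p1, by grind⟩)
        fun k => ⟨_, mul_mem p0 p1, by grind⟩
  · have := kb x hx
    have := kb _ p0 a0
    have := kb _ (mul_mem hx p0)
    clear kx ky s7 kb; grind

theorem uv {n : U6 F} (hn : n ∈ P) (nα : n.α = 0) (nβ : n.β ≠ 0) : ∃ u ∈ P, ∃ v ∈ P, u.β = 0 ∧ v.β = 0 ∧ u.α ≠ 0 ∧
    v.α ≠ 0 ∧ u.α ≠ v.α ∧ B u u = B x0 y0 ∧ B v v = B x0 y0 ∧ B u v + B v u = B x0 y0 ∧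
    n.β * (u.α * v.γ + v.α * u.γ) = B x0 y0 ∧ (∀ x ∈ P, x.α = 0 ∨ x.α = u.α ∨ x.α = v.α ∨ x.α = u.α + v.α) ∧
    (∀ y ∈ P, D y → ∃ x ∈ P, y.a = n.β * x.α) ∧ ∀ x ∈ P, x.β = 0 ∨ x.β = n.β := by
  obtain ⟨x1, p1, b, -, a0, a1, ne, hb, gα, ga, gβ⟩ := h.frame
  obtain rfl := (gβ n hn).resolve_left nβ
  have nγ := (h.αγ hn).1 nα
  have ω : n.β * (x0.α * x1.γ + x1.α * x0.γ) = B x0 y0 := by
    have m := D.mul (cm_D x1 n).1 h.y0P.2
    have := h.uu _ (mul_mem (cmP p1 hn) h.y0P.1) m.1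
    have := cm_D x1 n
    clear gα ga gβ; simp only [B]; grind
  have sq : ∀ m ∈ P, m.β = 0 → B m m = 0 ∨ B m m = B x0 y0 := fun m hm e =>
    h.rt _ ((by ext <;> simp only [z, B] <;> grind : m * m = z (B m m)) ▸ mul_mem hm hm)
  have fx : ∀ x ∈ P, ∀ x' ∈ P, n.β * (x.α * x'.γ + x'.α * x.γ) = B x0 y0 →
      ∃ u ∈ P, u.α = x.α ∧ u.β = 0 ∧ u.γ = x.γ ∧ B u u = B x0 y0 := fun x hx x' hx' e => by
    obtain ⟨m, hm, e1, e2, e3⟩ : ∃ m ∈ P, m.α = x.α ∧ m.β = 0 ∧ m.γ = x.γ :=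
      (gβ x hx).elim (fun k => ⟨x, hx, rfl, k, rfl⟩) fun k => ⟨_, mul_mem hx hn, by clear gα ga gβ sq; grind⟩
    refine (sq m hm e2).elim (fun k => ⟨m * ⁅x', n⁆, mul_mem hm (cmP hx' hn), ?_⟩) fun k => ⟨m, hm, e1, e2, e3, k⟩
    have := cm_D x' n
    generalize ⁅x', n⁆ = y at this ⊢
    clear gα ga gβ sq; simp only [B, D] at *; grind
  obtain ⟨u, hu, u1, u2, u3, u4⟩ := fx _ h.x0P _ p1 ω
  obtain ⟨v, hv, v1, v2, v3, v4⟩ := fx _ p1 _ h.x0P (by rw [← ω, add_comm])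
  obtain ⟨w, hw, w1, w2, w3, w4, w5⟩ : ∃ w ∈ P, w.α = x1.α ∧ w.β = 0 ∧ w.γ = x1.γ ∧ B w w = B x0 y0 ∧
      B u w + B w u = B x0 y0 := by
    clear gα ga gβ sq fx
    refine (h.rt (B u v + B v u) ((by ext <;> simp only [z, B, commutatorElement_def] <;> grind :
      ⁅u, v⁆ = z (B u v + B v u)) ▸ cmP hu hv)).elim (fun k => ⟨v * ⁅x1, n⁆, mul_mem hv (cmP p1 hn), ?_⟩)
      fun k => ⟨v, hv, v1, v2, v3, v4, k⟩
    have := cm_D x1 n
    generalize ⁅x1, n⁆ = y at this ⊢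
    obtain ⟨⟨k1, k2, k3⟩, k4, k5⟩ := this
    rw [← ω] at u4 v4 ⊢
    simp only [B, mα, mβ, mγ, ma, md, k1, k2, k3, k4, k5, nα, nγ, u1, u2, u3, v1, v2, v3] at k u4 v4 ⊢
    clear a0 a1 ne nβ ω; grind
  exact ⟨u, hu, w, hw, u2, w2, u1 ▸ a0, w1 ▸ a1, u1 ▸ w1 ▸ ne, u4, w4, w5, u1 ▸ w1 ▸ u3 ▸ w3 ▸ ω, u1 ▸ w1 ▸ gα, ga, gβ⟩

theorem two : (∃ n ∈ P, n.α = 0 ∧ n.β ≠ 0) ∨
    ∀ x ∈ P, ∀ y ∈ P, (x.α * x.β * x.γ = 0 ↔ y.α * y.β * y.γ = 0) → x.β = y.β := by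
  refine or_iff_not_imp_left.2 fun k x hx y hy e => ?_
  obtain ⟨-, -, b, -, -, -, -, -, -, -, gβ⟩ := h.frame
  push Not at k
  have := gβ x hx
  have := gβ y hy
  have := k x hx
  have := k y hy
  have := h.αγ hx
  have := h.αγ hy
  clear gβ k
  simp only [mul_eq_zero] at e
  grind

end Hp

theorem exists_hp {P : Subgroup (U6 F)} (c3 : ¬ ⁅P, P⁆ ≤ centralizer P)
    (rt : ∀ c c', z c ∈ P → z c' ∈ P → c ≠ 0 → c' = 0 ∨ c' = c)
    (uu : ∀ c, z c ∈ P → c ≠ 0 → ∀ x ∈ P, D x → (x.a = 0 ↔ x.d = 0)) : ∃ x0 y0, Hp P x0 y0 := by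
  rw [commutator_le] at c3
  push Not at c3
  obtain ⟨x, hx, y, hy, k⟩ := c3
  obtain ⟨w, hw, k⟩ : ∃ w ∈ P, w * ⁅x, y⁆ ≠ ⁅x, y⁆ * w := by simpa [mem_centralizer_iff] using k
  have e := cm_B (x := w) (cm_D x y).1
  have m := e ▸ Hp.cmP hw (Hp.cmP hx hy)
  have c : B w ⁅x, y⁆ ≠ 0 := fun c => k (commutatorElement_eq_one_iff_mul_comm.1 (by rw [e, c]; rfl))
  exact ⟨w, _, hw, ⟨x, hx, y, hy, rfl⟩, c, fun c' k => rt _ _ m k c, uu _ m c⟩

end CF.D4.E1
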