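/-
The wreath structure of the Sylow subgroup of class three.
-/
import Cfsg.Agent.D4.EA
import Cfsg.Agent.Wg.A

set_option autoImplicit false

namespace CF.D4.E1

open Subgroup U6 CF.Wg CF.Invol
open scoped commutatorElement

variable {F : Type*} [Field F] [CharP F 2]

abbrev Q8 := QuaternionGroup 2

theorem zq : Zq (.a 2 : Q8) := ⟨by decide, by decide, by decide, by decide⟩

theorem q8 : ∀ x : Q8, ∃ y ∈ [1, .a 1, .xa 0, .a 1 * .xa 0], x = y ∨ x = .a 2 * y := by decide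

theorem Hp.wr {P : Subgroup (U6 F)} {x0 y0 n : U6 F} (h : Hp P x0 y0) (hn : n ∈ P) (nα : n.α = 0) (nβ : n.β ≠ 0) :
    ∃ κ : Q8 × Q8 →* U6 F, Wr κ n (.a 2) ∧ Sy κ n = P := by
  obtain ⟨u, hu, v, hv, uβ, vβ, u0, v0, ne, uu, vv, uv, ω, gα, ga, gβ⟩ := h.uv hn nα nβ
  have nγ := (h.αγ hn).1 nα
  have c0 := h.c0
  have rt := h.rt
  generalize B x0 y0 = c at *
  obtain ⟨r1, r2, r3, r4, r5, nn, nz⟩ : u * u = z c ∧ v * v = z c ∧ v * u * v⁻¹ = u⁻¹ ∧ z c * z c = 1 ∧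
      (∀ g ∈ ({v, u} : Set (U6 F)), ∀ g' ∈ ({v, u} : Set (U6 F)), g * (n * g' * n⁻¹) = n * g' * n⁻¹ * g) ∧ n * n = 1 ∧
        n * z c * n⁻¹ = z c := by
    clear gα ga gβ rt u0 v0 ne nβ c0
    simp only [Set.mem_insert_iff, Set.mem_singleton_iff, forall_eq_or_imp, forall_eq, B] at *
    refine ⟨?_, ?_, ?_, ?_, ⟨⟨?_, ?_⟩, ?_, ?_⟩, ?_, ?_⟩ <;> ext <;>
      simp only [z, mα, mβ, mγ, ma, md, mc, iα, iβ, iγ, ia, id', ic, oα, oβ, oγ, oa, od, oc, uβ, vβ, nα, nγ] <;> grind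
  have p4 : u ^ (2 * 2) = 1 := by rw [pow_mul, sq u, r1, sq, r4]
  obtain ⟨ι, i1, i2, ir⟩ : ∃ ι : Q8 →* U6 F, ι (.a 1) = u ∧ ι (.xa 0) = v ∧ ι.range = closure {v, u} :=
    ⟨quaternionHom u v p4 (r2.trans (r1.symm.trans (sq u).symm)) r3, by simpa [quaternionHom_a] using zmodPow_intCast p4 1,
      by simpa [quaternionHom_xa] using zmodPow_intCast p4 0, quaternionHom_range ..⟩
  have iz : ι (.a 2) = z c := by rw [show (.a 2 : Q8) = .a 1 * .a 1 by decide, map_mul, i1, r1]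
  have cl : ∀ {K : Subgroup (U6 F)}, v ∈ K → u ∈ K → ∀ x, ι x ∈ K := fun a b x =>
    (closure_le _).2 (Set.pair_subset a b) (ir.le ⟨x, rfl⟩)
  have cm : ∀ x y, Commute (ι x) ((MulAut.conj n).toMonoidHom.comp ι y) := fun x y => by
    have k : ∀ g ∈ ({v, u} : Set (U6 F)), g ∈ centralizer {n * ι y * n⁻¹} := fun g hg =>
      mem_centralizer_singleton_iff.2 (mem_centralizer_singleton_iff.1 (cl
        (K := (centralizer {g}).comap (MulAut.conj n).toMonoidHom)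
        (mem_centralizer_singleton_iff.2 (r5 g hg v (by simp)).symm)
        (mem_centralizer_singleton_iff.2 (r5 g hg u (by simp)).symm) y)).symm
    exact mem_centralizer_singleton_iff.1 (cl (k v (by simp)) (k u (by simp)) x)
  have iβ : ∀ x, (ι x).β = 0 := fun x => by
    obtain ⟨y, hy, rfl | rfl⟩ := q8 x <;> simp only [List.mem_cons, List.not_mem_nil, or_false] at hy <;>
      obtain rfl | rfl | rfl | rfl := hy <;> simp only [map_mul, map_one, i1, i2, iz, mβ, oβ, z, uβ, vβ, add_zero]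
  have iα : ∀ x, (ι x).α = 0 → x = 1 ∨ x = .a 2 := fun x e => by
    obtain ⟨y, hy, k⟩ := q8 x
    have : (ι y).α = 0 := k.elim (· ▸ e) fun k => by simpa [k, iz, z] using e
    simp only [List.mem_cons, List.not_mem_nil, or_false] at hy
    obtain rfl | rfl | rfl | rfl := hy
    · simpa using k
    all_goals simp only [map_mul, i1, i2, mα] at this
    exacts [absurd this u0, absurd this v0, absurd (CharTwo.add_eq_zero.1 this) ne]
  let κ := ι.noncommCoprod _ cm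
  have κe : ∀ x y, κ (x, y) = ι x * (n * ι y * n⁻¹) := fun _ _ => rfl
  have ni : n⁻¹ = n := inv_eq_of_mul_eq_one_right nn
  have z1 : z c ≠ 1 := fun e => c0 (congrArg U6.c e)
  have w : Wr κ n (.a 2) := { zq with
    ker := fun x y => ⟨fun e => by
        have k := iα (x * y) (by have := congrArg U6.α e; rw [κe] at this; rw [map_mul]; clear gα ga gβ iα; grind)
        have k' : (ι x * ι y).a = 0 := by rw [← map_mul]; rcases k with k | k <;> simp [k, iz, z]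
        have := iα y (by
          have := congrArg U6.a e
          have := iβ x
          have := iβ y
          rw [κe] at *; clear gα ga gβ iα iβ; grind)
        rw [κe] at e
        have := (by decide : ∀ x y : Q8, x * y = 1 ∨ x * y = .a 2 → y = 1 ∨ y = .a 2 → x = 1 ∨ x = .a 2) x y k this
        rcases this with rfl | rfl <;> rcases ‹y = 1 ∨ _› with rfl | rfl <;> simp_all,
      by rintro (⟨rfl, rfl⟩ | ⟨rfl, rfl⟩) <;> simp [κe, iz, nz, r4]⟩
    nn := nn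
    sw := fun x y => by rw [κe, κe, show ι y * (n * ι x * n⁻¹) = n * ι x * n⁻¹ * ι y from cm y x, ni]; simp [mul_assoc, ← mul_assoc n n, nn]
    nK := fun ⟨x, y⟩ e => nβ (by have := iβ x; have := iβ y; rw [← e, κe]; clear gα ga gβ iα iβ; grind) }
  refine ⟨κ, w, le_antisymm (sup_le ?_ (zpowers_le.2 hn)) fun x hx => ?_⟩
  · rintro _ ⟨⟨x, y⟩, rfl⟩
    exact mul_mem (cl hv hu x) (mul_mem (mul_mem hn (cl hv hu y)) (inv_mem hn))
  have m1 : ∀ x, ι x ∈ Sy κ n := fun x => mem_sup_left ⟨(x, 1), by simp [κe]⟩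
  have m2 : n ∈ Sy κ n := mem_sup_right (mem_zpowers n)
  have ex : ∀ x ∈ P, ∃ y, (ι y).α = x.α := fun x hx => by
    rcases gα x hx with k | k | k | k
    exacts [⟨1, by simp [k]⟩, ⟨_, i1 ▸ k.symm⟩, ⟨_, i2 ▸ k.symm⟩, ⟨.a 1 * .xa 0, by rw [map_mul, i1, i2, k, mα]⟩]
  have s0 : ∀ x ∈ P, D x → x.a = 0 → x ∈ Sy κ n := fun x hx d e => by
    have k : x = z x.c := U6.ext d.1 d.2.1 d.2.2 e ((h.uu x hx d).1 e) rfl
    rcases rt _ (k ▸ hx) with k' | k' <;> rw [k, k']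
    exacts [one_mem _, iz ▸ m1 _]
  have s1 : ∀ x ∈ P, D x → x ∈ Sy κ n := fun x hx d => by
    obtain ⟨y, hy, e⟩ := ga x hx d
    obtain ⟨t, e'⟩ := ex y hy
    have m := D.mul d (cm_D (ι t) n).1
    exact (mul_mem_cancel_right (Hp.cmP (m1 t) m2)).1 (s0 _ (mul_mem hx (Hp.cmP (cl hv hu t) hn)) m.1 (by
      rw [m.2.1, (cm_D _ _).2.1, e, e', nα]; clear gα ga gβ iα iβ; grind))
  have s2 : ∀ x ∈ P, x.β = 0 → x ∈ Sy κ n := fun x hx e => by
    obtain ⟨t, e'⟩ := ex x hx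
    have m := mul_mem hx (cl hv hu t)
    have a : (x * ι t).α = 0 := by rw [mα, e', CharTwo.add_self_eq_zero]
    exact (mul_mem_cancel_right (m1 t)).1 (s1 _ m ⟨a, by rw [mβ, e, iβ, add_zero], (h.αγ m).1 a⟩)
  exact (gβ x hx).elim (s2 x hx) fun e => (mul_mem_cancel_right m2).1 (s2 _ (mul_mem hx hn) (by
    rw [mβ, e, CharTwo.add_self_eq_zero]))

end CF.D4.E1
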