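/-
Linear groups of degree four without transvections: root groups of planes meeting in a line commute.
-/
import Cfsg.Agent.MaxSub.O4D

set_option autoImplicit false

namespace CF.D4.Fq

open Matrix CF.MaxSub.O4
open CF.MaxSub.E4 (M4 M2 mulVec4 mul4 ext4 up lo)

attribute [-simp] Matrix.mulVec_fin_two

variable {F : Type*} [Field F] {S : M4 F → Prop} {M N g g' Q Q' : M4 F} {a b c d A A' B : M2 F}

/-- A group of matrices. -/
structure Gp (S : M4 F → Prop) : Prop where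
  one : S 1
  mul : ∀ {a b}, S a → S b → S (a * b)
  inv : ∀ {a}, S a → ∃ b, S b ∧ a * b = 1

/-- No transvections. -/
structure Nt (S : M4 F → Prop) : Prop extends Gp S where
  two : (2 : F) ≠ 0
  nt : ∀ v φ, φ ⬝ᵥ v = 0 → S (1 + vecMulVec v φ) → v = 0 ∨ φ = 0

/-- Change of basis. -/
def cj (S : M4 F → Prop) (Q Q' : M4 F) (m : M4 F) : Prop := S (Q * m * Q')

theorem cj_mul (e : Q * Q' = 1) (a b : M4 F) : Q * a * Q' * (Q * b * Q') = Q * (a * b) * Q' := by
  simp [mul_assoc, ← mul_assoc Q', mul_eq_one_comm.1 e]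

theorem cj_inj (e : Q * Q' = 1) (k : Q * M * Q' = Q * N * Q') : M = N := by
  simpa [← mul_assoc, mul_eq_one_comm.1 e, mul_assoc _ Q'] using congrArg (Q' * · * Q) k

theorem cj_back (e : Q * Q' = 1) (M : M4 F) : Q * (Q' * M * Q) * Q' = M := by
  simp [← mul_assoc, e, mul_assoc _ Q]

theorem cj_add (e : Q * Q' = 1) (M : M4 F) : Q * (1 + M) * Q' = 1 + Q * M * Q' := by simp [mul_add, add_mul, e]

namespace Gp
variable (h : Gp S)
include h

theorem inv' (k : S M) (e : M * N = 1) : S N := by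
  obtain ⟨b, k', e'⟩ := h.inv k
  rwa [← one_mul N, ← mul_eq_one_comm.1 e', mul_assoc, e, mul_one]

theorem conj (k : S g) (e : g * g' = 1) (l : S M) : S (g * M * g') := h.mul (h.mul k l) (h.inv' k e)

theorem conj' (k : S g) (l : S M) (e : g * M = N * g) : S N := by
  obtain ⟨g', -, e'⟩ := h.inv k
  simpa [e, mul_assoc, e'] using h.conj k e' l

theorem cj (e : Q * Q' = 1) : Gp (cj S Q Q') :=
  ⟨by simpa [Fq.cj, e] using h.one, fun a b => by simpa [Fq.cj, cj_mul e] using h.mul a b, fun a =>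
    let ⟨b, k, l⟩ := h.inv a
    ⟨Q' * b * Q, by rwa [Fq.cj, cj_back e], cj_inj e (by rw [← cj_mul e, cj_back e, l, mul_one, e])⟩⟩

/-- The upper root group. -/
def XS : AddSubgroup (M2 F) where
  carrier := {A | S (bl 1 A 0 1)}
  zero_mem' := by simpa [bl_one] using h.one
  add_mem' a b := by simpa [bl_mul, add_comm] using h.mul a b
  neg_mem' a := h.inv' a (by simp [bl_mul, bl_one])

/-- The lower root group. -/
def YS : AddSubgroup (M2 F) where
  carrier := {A | S (bl 1 0 A 1)}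
  zero_mem' := by simpa [bl_one] using h.one
  add_mem' a b := by simpa [bl_mul] using h.mul a b
  neg_mem' a := h.inv' a (by simp [bl_mul, bl_one])

theorem mX : A ∈ h.XS ↔ S (bl 1 A 0 1) := Iff.rfl
theorem mY : A ∈ h.YS ↔ S (bl 1 0 A 1) := Iff.rfl

end Gp

theorem rk2 (e : A.det = 0) : ∃ u w : Fin 2 → F, A = vecMulVec u w := by
  rw [det_fin_two] at e
  by_cases z : A 0 0 = 0
  · rcases mul_eq_zero.1 (show A 0 1 * A 1 0 = 0 by linear_combination A 1 1 * z - e) with k | k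
    · exact ⟨![0, 1], A 1, by ext i j; fin_cases i <;> fin_cases j <;> simp [vecMulVec_apply, *]⟩
    · exact ⟨![A 0 1, A 1 1], ![0, 1], by ext i j; fin_cases i <;> fin_cases j <;> simp [vecMulVec_apply, *]⟩
  · exact ⟨![1, A 1 0 / A 0 0], A 0, by
      ext i j; fin_cases i <;> fin_cases j <;> simp [vecMulVec_apply, z]; field_simp; linear_combination e⟩

/-- Elements fixing a vector and a hyperplane. -/
def pz (x y : F) (m : M2 F) (p q z : F) : M4 F := !![1, x, y, z; 0, m 0 0, m 0 1, p; 0, m 1 0, m 1 1, q; 0, 0, 0, 1]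

theorem pz_mul (x y p q z x' y' p' q' z' : F) (m m' : M2 F) : pz x y m p q z * pz x' y' m' p' q' z' =
    pz (x' + x * m' 0 0 + y * m' 1 0) (y' + x * m' 0 1 + y * m' 1 1) (m * m') (p + m 0 0 * p' + m 0 1 * q')
      (q + m 1 0 * p' + m 1 1 * q') (z + z' + x * p' + y * q') := by
  ext i j; fin_cases i <;> fin_cases j <;> simp [pz, mul_apply, Fin.sum_univ_four] <;> ring

theorem bl_pz (A : M2 F) : bl 1 A 0 1 = pz 0 (A 0 0) (up (A 1 0)) (A 1 1) 0 (A 0 1) := by
  ext i j; fin_cases i <;> fin_cases j <;> simp [pz, bl, up]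

namespace Nt
variable (h : Nt S)
include h

theorem cj (e : Q * Q' = 1) : Nt (cj S Q Q') := ⟨h.toGp.cj e, h.two, fun v φ k y => by
  have e' := mul_eq_one_comm.1 e
  exact (h.nt (Q *ᵥ v) (φ ᵥ* Q') (by rwa [← dotProduct_mulVec, mulVec_mulVec, e', one_mulVec]) (by
    simpa [Fq.cj, cj_add e, mul_vecMulVec, vecMulVec_mul] using y)).imp
      (fun z => by simpa [mulVec_mulVec, e'] using congrArg (Q' *ᵥ ·) z)
      fun z => by simpa [vecMul_vecMul, e'] using congrArg (· ᵥ* Q) z⟩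

theorem rk1 {v φ : Fin 4 → F} (k : S (1 + M)) (e : M = vecMulVec v φ) (d : φ ⬝ᵥ v = 0) : M = 0 := by
  subst e; rcases h.nt v φ d k with rfl | rfl <;> simp

theorem detX (k : A ∈ h.XS) (e : A.det = 0) : A = 0 := by
  obtain ⟨u, w, rfl⟩ := rk2 e
  have := h.rk1 (M := bl 0 (vecMulVec u w) 0 0) (v := vv u 0) (φ := vv 0 w) (by simpa [bl_one, bl_add] using h.mX.1 k)
    (by ext i j; fin_cases i <;> fin_cases j <;> simp [vecMulVec_apply, bl, vv]) (by simp [vv, dotProduct, Fin.sum_univ_four])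
  exact (bl_inj.1 (this.trans bl_zero)).2.1

theorem detY (k : A ∈ h.YS) (e : A.det = 0) : A = 0 := by
  obtain ⟨u, w, rfl⟩ := rk2 e
  have := h.rk1 (M := bl 0 0 (vecMulVec u w) 0) (v := vv 0 u) (φ := vv w 0) (by simpa [bl_one, bl_add] using h.mY.1 k)
    (by ext i j; fin_cases i <;> fin_cases j <;> simp [vecMulVec_apply, bl, vv]) (by simp [vv, dotProduct, Fin.sum_univ_four])
  exact (bl_inj.1 (this.trans bl_zero)).2.2.1

theorem hz {x y p q z x' y' p' q' z' : F} (k : S (pz x y 1 p q z)) (k' : S (pz x' y' 1 p' q' z')) :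
    x * p' + y * q' = x' * p + y' * q := by
  obtain ⟨n, l, e⟩ := h.inv (h.mul k' k)
  have := h.rk1 (M := pz 0 0 1 0 0 (x * p' + y * q' - (x' * p + y' * q)) - 1)
    (v := ![x * p' + y * q' - (x' * p + y' * q), 0, 0, 0]) (φ := ![0, 0, 0, 1]) (by
      convert h.mul (h.mul k k') l using 1
      rw [add_sub_cancel, ← mul_one (pz 0 0 1 0 0 _), ← e, ← mul_assoc]
      congr 1
      simp only [pz_mul]; congr 1 <;> simp <;> ring)
    (by ext i j; fin_cases i <;> fin_cases j <;> simp [vecMulVec_apply, pz]) (by simp [dotProduct, Fin.sum_univ_four])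
  simpa [pz, sub_eq_zero] using congrFun₂ this 0 3

theorem hz' {x y p q z x' y' p' q' z' : F} {m : M2 F} (k : S (pz x y 1 p q z)) (k' : S (pz x' y' m p' q' z'))
    (d : m.det = 1) : x * (m 0 0 * p + m 0 1 * q) + y * (m 1 0 * p + m 1 1 * q) =
      (x * m 1 1 - y * m 1 0) * p + (y * m 0 0 - x * m 0 1) * q := by
  rw [det_fin_two] at d
  refine h.hz k (h.conj' k' k (N := pz _ _ 1 _ _ (z + x' * p + y' * q - (x * m 1 1 - y * m 1 0) * p' -
    (y * m 0 0 - x * m 0 1) * q')) ?_)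
  simp only [pz_mul, mul_one, one_mul]; congr 1 <;> (try simp) <;> grind

variable {r t γ s : F}

theorem q1 (k : S (pz r 0 (lo t) 0 s γ)) (t0 : t ≠ 0) (hA : A ∈ h.XS) (e : A 1 0 = 0) : A = 0 := by
  have l : S _ := hA
  rw [bl_pz, e, CF.MaxSub.E4.up_zero] at l
  have := h.hz' l k (by simp [lo, det_fin_two])
  simp [lo] at this
  exact h.detX hA (by
    rw [det_fin_two, e]; exact mul_left_cancel₀ (mul_ne_zero h.two t0) (by linear_combination this))

theorem q0 [Finite F] (k : S (pz r 0 (lo t) 0 s γ)) (t0 : t ≠ 0) (hA : A ∈ h.XS) (hA' : A' ∈ h.XS) (a0 : A ≠ 0)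
    (a1 : A' ≠ 0) (a2 : A' ≠ A) (a3 : A' ≠ -A) : False := by
  have h2 := h.two
  have y0 := fun A => h.q1 (A := A) k t0
  let P (M : M2 F) := M.det = 1 ∧ ∃ x y p q z, S (pz x y M p q z)
  have Pm (M N) (a : P M) (b : P N) : P (M * N) := by
    obtain ⟨a0, x, y, p, q, z, a⟩ := a
    obtain ⟨b0, x', y', p', q', z', b⟩ := b
    exact ⟨by rw [det_mul, a0, b0, one_mul], _, _, _, _, _, by simpa only [pz_mul] using h.mul a b⟩
  have Px {A} (hA : A ∈ h.XS) : P (up (A 1 0)) := ⟨by simp [up, det_fin_two], _, _, _, _, _, bl_pz A ▸ h.mX.1 hA⟩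
  have y1 : A 1 0 ≠ 0 := fun e => a0 (y0 _ hA e)
  obtain ⟨U, T, hS, hT, -, l⟩ := l2o h2 P (by simpa [CF.MaxSub.E4.up_zero] using Px (zero_mem _)) Pm (fun _ a => a.1) y1 t0
    (Px hA) ⟨by simp [lo, det_fin_two], _, _, _, _, _, k⟩
  have b1 : A' 1 0 ≠ 0 := fun e => a1 (y0 _ hA' e)
  have b2 : A' 1 0 ≠ A 1 0 := fun e => a2 (sub_eq_zero.1 (y0 _ (sub_mem hA' hA) (by simp [e])))
  have b3 : A' 1 0 ≠ -A 1 0 := fun e =>
    a3 (eq_neg_of_add_eq_zero_left (y0 _ (add_mem hA' hA) (by simp [e])))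
  obtain ⟨-, l, -⟩ | ⟨K, hK, hK'⟩ := l
  · have := three_cases h2 l ((hS _).2 (Px hA)) y1 ((hS _).2 (Px hA'))
    tauto
  have tor {m : F} (hm : m ∈ K) (m0 : m ≠ 0) : ∃ σ ρ, ∀ r z y s, !![r, z; y, s] ∈ h.XS →
      !![m * (r + σ * y), z + σ * s - ρ * m * (r + σ * y); m ^ 2 * y, m * s - ρ * m ^ 2 * y] ∈ h.XS := by
    have w {m : F} (hm : m ∈ K) (m0 : m ≠ 0) : P !![0, m * A 1 0; -m⁻¹ / A 1 0, 0] := by
      convert Pm _ _ (Pm _ _ ((hS _).1 ((hK _).1 hm))
        ((hT _).1 ((hK' _).1 (neg_mem (inv_mem hm))))) ((hS _).1 ((hK _).1 hm)) using 1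
      ext i j; fin_cases i <;> fin_cases j <;> simp [up, lo] <;> field_simp <;> simp
    obtain ⟨-, σ, y, p, ρ, z, a⟩ := Pm _ _ (w hm m0) (w (neg_mem K.one_mem) (by simp))
    rw [show !![0, m * A 1 0; -m⁻¹ / A 1 0, 0] * !![0, -1 * A 1 0; -(-1)⁻¹ / A 1 0, 0] = !![m, 0; 0, m⁻¹] by
      ext i j; fin_cases i <;> fin_cases j <;> simp <;> field_simp] at a
    refine ⟨σ, ρ, fun r' z' y' s' hD => h.conj' a hD ?_⟩
    simp only [bl_pz, pz_mul]; congr 1 <;> simp [up, m0] <;> field_simp <;> ring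
  obtain ⟨τ, υ, hτ⟩ := tor (neg_mem K.one_mem) (by simp)
  have st' {r z y s} (hD : !![r, z; y, s] ∈ h.XS) : r = -(τ * y) / 2 ∧ s = -(υ * y) / 2 := by
    have := y0 _ (sub_mem (hτ _ _ _ _ hD) hD) (by simp)
    have e1 := congrFun₂ this 0 0
    have e2 := congrFun₂ this 1 1
    simp at e1 e2
    constructor <;> field_simp
    · linear_combination -e1
    · linear_combination -e2
  obtain ⟨σ, ρ, hσ⟩ := tor (m := A' 1 0 / A 1 0) ((hK _).2 (by simpa [y1] using (hS _).2 (Px hA')))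
    (by positivity)
  have m0 : A' 1 0 / A 1 0 ≠ 0 := by positivity
  have m1 : (A' 1 0 / A 1 0) ^ 2 ≠ 1 := by
    rw [ne_eq, sq_eq_one_iff, div_eq_iff y1, div_eq_iff y1]; simp [b2, b3]
  generalize A' 1 0 / A 1 0 = m at *
  obtain ⟨r, z, y, s, rfl⟩ : ∃ r z y s, A = !![r, z; y, s] := ⟨_, _, _, _, eta_fin_two A⟩
  obtain ⟨rfl, rfl⟩ := st' hA
  obtain ⟨c2, c3⟩ := st' (hσ _ _ _ _ hA)
  simp at y1
  obtain rfl : σ = (1 - m) * τ / 2 := by
    field_simp at c2 ⊢; linear_combination c2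
  obtain rfl : ρ = (m - 1) * υ / (2 * m) := by
    field_simp at c3 ⊢; linear_combination -c3
  have c3 := congrFun₂ (h.detX (sub_mem (hσ _ _ _ _ hA) hA) (by
    simp [det_fin_two]; field_simp; ring)) 1 0
  simp at c3
  exact m1 (mul_right_cancel₀ y1 (by linear_combination c3))

theorem q2 [Finite F] (k : S (pz r 0 (lo t) 0 s γ)) (hA : A ∈ h.XS) (hA' : A' ∈ h.XS) (a0 : A ≠ 0)
    (a1 : A' ≠ 0) (a2 : A' ≠ A) (a3 : A' ≠ -A) :
    bl 1 A 0 1 * pz r 0 (lo t) 0 s γ = pz r 0 (lo t) 0 s γ * bl 1 A 0 1 := by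
  obtain rfl : t = 0 := by_contra fun t0 => h.q0 k t0 hA hA' a0 a1 a2 a3
  rw [show lo (0 : F) = 1 by rw [one_fin_two]; rfl] at k ⊢
  have l : S _ := hA
  rw [bl_pz] at l ⊢
  have e := h.hz' k l (by simp [up, det_fin_two])
  simp [up] at e
  by_cases e0 : A 1 0 = 0
  · rw [e0, CF.MaxSub.E4.up_zero] at l ⊢
    have := h.hz k l
    simp only [pz_mul]; congr 1 <;> simp
    linear_combination -this
  have : pz r 0 1 0 s γ - 1 = 0 := by
    rcases mul_eq_zero.1 (mul_left_cancel₀ (mul_ne_zero h.two e0) (by linear_combination e) : r * s = 0) with rfl | rfl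
    · exact h.rk1 (v := ![γ, 0, s, 0]) (φ := ![0, 0, 0, 1]) (by simpa)
        (by ext i j; fin_cases i <;> fin_cases j <;> simp [vecMulVec_apply, pz]) (by simp [dotProduct, Fin.sum_univ_four])
    · exact h.rk1 (v := ![1, 0, 0, 0]) (φ := ![0, r, 0, γ]) (by simpa)
        (by ext i j; fin_cases i <;> fin_cases j <;> simp [vecMulVec_apply, pz]) (by simp [dotProduct, Fin.sum_univ_four])
  rw [sub_eq_zero.1 this, mul_one, one_mul]

end Nt

end CF.D4.Fq
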