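/-
Linear groups of degree four without transvections: root elements.
-/
import Cfsg.Agent.D4.Q1

set_option autoImplicit false

namespace CF.D4.Fq

open Matrix CF.MaxSub.O4
open CF.MaxSub.E4 (M4 M2 mulVec4 mul4 ext4 up lo e0 mv_e0)

attribute [-simp] Matrix.mulVec_fin_two

variable {F : Type*} [Field F] {S : M4 F → Prop} {M N g g' Q Q' : M4 F} {a b c d A A' B : M2 F} {v w : Fin 4 → F}

/-- An element of a large root group. -/
structure Rt (S : M4 F → Prop) (N : M4 F) : Prop where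
  mem : S (1 + N)
  sq : N * N = 0
  ne : N ≠ 0
  big : ∃ M, S (1 + M) ∧ N * M = 0 ∧ M * N = 0 ∧ M ≠ 0 ∧ M ≠ N ∧ M ≠ -N

theorem Rt.tr {S' : M4 F → Prop} (h : Rt S N) (e : Q * Q' = 1) (k : ∀ m, S m → S' (Q * m * Q')) : Rt S' (Q * N * Q') :=
  let ⟨M, a, b, c, d, f, l⟩ := h.big
  ⟨cj_add e N ▸ k _ h.mem, by simp [cj_mul e, h.sq], fun z => h.ne (cj_inj e (by simp [z])), _, cj_add e M ▸ k _ a,
    by simp [cj_mul e, b], by simp [cj_mul e, c], fun z => d (cj_inj e (by simp [z])), fun z => f (cj_inj e z),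
    fun z => l (cj_inj e (by simp [z]))⟩

theorem Rt.conj (h : Rt S N) (G : Gp S) (k : S g) (e : g * g' = 1) : Rt S (g * N * g') := h.tr e fun _ => G.conj k e

theorem Rt.cj (h : Rt S N) (e : Q * Q' = 1) : Rt (cj S Q Q') (Q' * N * Q) :=
  h.tr (mul_eq_one_comm.1 e) fun m k => by rwa [Fq.cj, cj_back e]

theorem ex_vv (v : Fin 4 → F) : ∃ x y, v = vv x y := ⟨![v 0, v 1], ![v 2, v 3], ext4 rfl rfl rfl rfl⟩

theorem vv0 : vv (0 : Fin 2 → F) 0 = 0 := ext4 rfl rfl rfl rfl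

theorem ex2 {x : Fin 2 → F} (h : x ≠ 0) : ∃ y : Fin 2 → F, IsUnit !![x 0, y 0; x 1, y 1].det := by
  by_cases e : x 0 = 0
  · exact ⟨![1, 0], Ne.isUnit fun k => h (by ext i; fin_cases i <;> simp_all [det_fin_two])⟩
  · exact ⟨![0, 1], Ne.isUnit (by simpa [det_fin_two])⟩

theorem comb {x y : Fin 2 → F} (h : x 0 * y 1 - y 0 * x 1 ≠ 0) (z : Fin 2 → F) : ∃ α β : F, z = α • x + β • y :=
  ⟨(z 0 * y 1 - y 0 * z 1) / (x 0 * y 1 - y 0 * x 1), (x 0 * z 1 - z 0 * x 1) / (x 0 * y 1 - y 0 * x 1), by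
    ext i; fin_cases i <;> simp <;> grind⟩

theorem blX : 1 + bl 0 A 0 0 = bl 1 A 0 1 := by simp [bl_one, bl_add]
theorem blY : 1 + bl 0 0 A 0 = bl 1 0 A 1 := by simp [bl_one, bl_add]

namespace Nt
variable (h : Nt S)
include h

theorem nf (k : S (1 + N)) (s : N * N = 0) (n : N ≠ 0) : ∃ Q Q', Q * Q' = 1 ∧ N = Q * bl 0 1 0 0 * Q' := by
  have z (x) : N *ᵥ N *ᵥ x = 0 := by rw [mulVec_mulVec, s, zero_mulVec]
  obtain ⟨x, hx⟩ : ∃ x, N *ᵥ x ≠ 0 := by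
    by_contra! q; exact n (ext_mv fun x => by rw [q, zero_mulVec])
  obtain ⟨y, hy⟩ : ∃ y, ∀ c : F, N *ᵥ y ≠ c • N *ᵥ x := by
    by_contra! q
    choose c hc using q
    have e : N = vecMulVec (N *ᵥ x) fun j => c (Pi.single j 1) := by
      ext i j; simpa [vecMulVec_apply, mul_comm] using congrFun (hc (Pi.single j 1)) i
    refine n (h.rk1 k e ?_)
    have := z x
    generalize N *ᵥ x = u at *
    rw [e, vecMulVec_mulVec] at this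
    simpa [hx] using this
  have i : ∀ α β : F, α • N *ᵥ x + β • N *ᵥ y = 0 → α = 0 ∧ β = 0 := fun α β e => by
    by_cases q : β = 0
    · simpa [q, hx] using e
    · exact (hy (-α / β) (by rw [div_eq_inv_mul, mul_smul, eq_inv_smul_iff₀ q, neg_smul, eq_neg_iff_add_eq_zero, add_comm, e])).elim
  let P : M4 F := (of ![N *ᵥ x, N *ᵥ y, x, y])ᵀ
  have e : ∀ u, P *ᵥ u = u 0 • N *ᵥ x + u 1 • N *ᵥ y + u 2 • x + u 3 • y := fun u => by
    ext i; rw [mulVec4]; simp [P, mul_comm]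
  have d : IsUnit P.det := Ne.isUnit fun q => by
    obtain ⟨u, u0, q⟩ := exists_mulVec_eq_zero_iff.2 q
    have q1 := congrArg (N *ᵥ ·) q
    simp only [e, mulVec_add, mulVec_smul, z, smul_zero, zero_add, mulVec_zero] at q q1
    obtain ⟨q2, q3⟩ := i _ _ q1
    simp only [q2, q3, zero_smul, add_zero] at q
    exact u0 (ext4 (i _ _ q).1 (i _ _ q).2 q2 q3)
  refine ⟨P, P⁻¹, mul_nonsing_inv _ d, ?_⟩
  rw [← mul_nonsing_inv_cancel_right P N d]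
  congr 1
  refine ext_mv fun u => ?_
  obtain ⟨p, q, rfl⟩ := ex_vv u
  rw [← mulVec_mulVec, ← mulVec_mulVec, bl_mv, e, e]
  simp [vv, mulVec_add, mulVec_smul, z]

theorem k2 (k : S (1 + M)) (s : M * M = 0) (n : M ≠ 0) (v0 : v ≠ 0) (e : M *ᵥ v = 0) :
    ∃ w, M *ᵥ w = 0 ∧ (∀ c : F, w ≠ c • v) ∧ ∀ y, ∃ α β : F, M *ᵥ y = α • v + β • w := by
  obtain ⟨Q, Q', q, rfl⟩ := h.nf k s n
  have q' := mul_eq_one_comm.1 q
  obtain ⟨v, rfl⟩ : ∃ u, v = Q *ᵥ u := ⟨Q' *ᵥ v, by simp [q]⟩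
  have i : ∀ {a b}, Q *ᵥ a = Q *ᵥ b → a = b := fun e => by simpa [q'] using congrArg (Q' *ᵥ ·) e
  obtain ⟨x, y, rfl⟩ := ex_vv v
  have m : ∀ x y, (Q * bl 0 1 0 0 * Q') *ᵥ Q *ᵥ vv x y = Q *ᵥ vv y 0 := fun x y => by
    rw [mulVec_mulVec, mul_assoc, q', mul_one, ← mulVec_mulVec, bl_mv]; simp
  obtain rfl : y = 0 := (vv_inj (i ((m x y).symm.trans (e.trans (by rw [vv0, mulVec_zero]))))).1
  obtain ⟨u, hu⟩ := ex2 (x := x) fun z => v0 (by rw [z, vv0, mulVec_zero])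
  replace hu := hu.ne_zero
  rw [det_fin_two_of] at hu
  refine ⟨Q *ᵥ vv u 0, by rw [m, vv0, mulVec_zero], fun c z => hu ?_, fun z => ?_⟩
  · have := i (z.trans (mulVec_smul ..).symm)
    rw [show u 0 = c * x 0 from congrFun this 0, show u 1 = c * x 1 from congrFun this 1]; ring
  · obtain ⟨p, r, l⟩ := ex_vv (Q' *ᵥ z)
    obtain ⟨α, β, rfl⟩ := comb hu r
    refine ⟨α, β, ?_⟩
    rw [show z = Q *ᵥ Q' *ᵥ z by simp [q], l, m, ← mulVec_smul, ← mulVec_smul, ← mulVec_add]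
    exact congrArg _ (by apply ext4 <;> simp [vv])

theorem bigX (k : Rt S (bl 0 A 0 0)) : A ∈ h.XS ∧ A ≠ 0 ∧ ∃ D ∈ h.XS, D ≠ 0 ∧ D ≠ A ∧ D ≠ -A := by
  have m : A ∈ h.XS := h.mX.2 (blX (A := A) ▸ k.mem)
  have n : A ≠ 0 := fun e => k.ne (by rw [e, bl_zero])
  have u := (isUnit_iff_isUnit_det _).2 (Ne.isUnit (mt (h.detX m) n))
  obtain ⟨M, k1, k3, k4, k5, k6, k7⟩ := k.big
  obtain ⟨p, q, r, s, rfl⟩ := exists_bl M
  rw [bl_mul, bl_zero, bl_inj] at k3 k4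
  simp [u.mul_left_eq_zero, u.mul_right_eq_zero] at k3 k4
  obtain ⟨rfl, rfl⟩ := k3
  obtain ⟨rfl, -⟩ := k4
  refine ⟨m, n, q, h.mX.2 (blX (A := q) ▸ k1), ?_, ?_, ?_⟩ <;> rintro rfl
  exacts [k5 bl_zero.symm, k6 rfl, k7 (by rw [eq_neg_iff_add_eq_zero, bl_add]; simp [bl_zero])]

theorem l0 [Finite F] (r : Rt S (bl 0 1 0 0)) (k : S (1 + M)) (s : M * M = 0) (v0 : v ≠ 0)
    (e : bl 0 1 0 0 *ᵥ v = 0) (e' : M *ᵥ v = 0) : bl 0 1 0 0 * M = M * bl 0 1 0 0 := by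
  by_cases n : M = 0
  · simp [n]
  obtain ⟨w, w1, w2, w3⟩ := h.k2 k s n v0 e'
  obtain ⟨x, y, rfl⟩ := ex_vv v
  obtain rfl : y = 0 := by simpa [bl_mv] using (vv_inj ((bl_mv ..).symm.trans (e.trans vv0.symm))).1
  have x0 : x ≠ 0 := fun z => v0 (by rw [z, vv0])
  obtain ⟨z, y, rfl⟩ := ex_vv w
  by_cases y0 : y = 0
  · subst y0
    have d : x 0 * z 1 - z 0 * x 1 ≠ 0 := fun d => by
      by_cases q : x 0 = 0
      · have q' : x 1 ≠ 0 := fun q' => x0 (by ext i; fin_cases i <;> assumption)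
        exact w2 (z 1 / x 1) (by apply ext4 <;> simp [vv, q'] <;> grind)
      · exact w2 (z 0 / x 0) (by apply ext4 <;> simp [vv, q] <;> grind)
    refine ext_mv fun u => ?_
    obtain ⟨α, β, q⟩ := w3 u
    obtain ⟨p, t, rfl⟩ := ex_vv u
    obtain ⟨γ, δ, rfl⟩ := comb d t
    rw [← mulVec_mulVec, ← mulVec_mulVec, q, mulVec_add, mulVec_smul, mulVec_smul, e, bl_mv, bl_mv,
      show vv (0 *ᵥ p + 1 *ᵥ (γ • x + δ • z)) (0 *ᵥ p + 0 *ᵥ (γ • x + δ • z)) = γ • vv x 0 + δ • vv z 0 by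
        apply ext4 <;> simp [vv], mulVec_add, mulVec_smul, mulVec_smul, e', w1]
    simp [vv0]
  obtain ⟨x', hp⟩ := ex2 x0
  obtain ⟨y', hs⟩ := ex2 y0
  have b0 : bl !![x 0, x' 0; x 1, x' 1] !![z 0, 0; z 1, 0] 0 !![y 0, y' 0; y 1, y' 1] *ᵥ e0 = vv x 0 := by
    apply ext4 <;> simp [mv_e0, bl, vv]
  have b2 : bl !![x 0, x' 0; x 1, x' 1] !![z 0, 0; z 1, 0] 0 !![y 0, y' 0; y 1, y' 1] *ᵥ e2 = vv z y := by
    apply ext4 <;> simp [mv_e2, bl, vv]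
  generalize !![x 0, x' 0; x 1, x' 1] = p, !![z 0, 0; z 1, 0] = q, !![y 0, y' 0; y 1, y' 1] = t at *
  have i : bl p q 0 t * bl p⁻¹ (-(p⁻¹ * q * t⁻¹)) 0 t⁻¹ = 1 := by
    simp [bl_mul, bl_one, mul_nonsing_inv _ hp, mul_nonsing_inv _ hs, ← mul_assoc]
  have i' := mul_eq_one_comm.1 i
  have r' := r.cj i
  have eN : bl p⁻¹ (-(p⁻¹ * q * t⁻¹)) 0 t⁻¹ * bl 0 1 0 0 * bl p q 0 t = bl 0 (p⁻¹ * t) 0 0 := by simp [bl_mul]
  rw [eN] at r'
  generalize bl p q 0 t = B, bl p⁻¹ (-(p⁻¹ * q * t⁻¹)) 0 t⁻¹ = B' at *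
  obtain ⟨m, a0, D, d1, d2, d3, d4⟩ := (h.cj i).bigX r'
  have c0 : (B' * M * B) *ᵥ e0 = 0 := by rw [← mulVec_mulVec, ← mulVec_mulVec, b0, e', mulVec_zero]
  have c2 : (B' * M * B) *ᵥ e2 = 0 := by rw [← mulVec_mulVec, ← mulVec_mulVec, b2, w1, mulVec_zero]
  have c1 : ∀ j, (B' * M * B) 1 j = 0 ∧ (B' * M * B) 3 j = 0 := fun j => by
    obtain ⟨α, β, q⟩ := w3 (B *ᵥ Pi.single j 1)
    have : (B' * M * B) *ᵥ Pi.single j 1 = α • e0 + β • e2 := by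
      rw [← mulVec_mulVec, ← mulVec_mulVec, q, ← b0, ← b2]; simp [mulVec_add, mulVec_smul, i']
    exact ⟨by simpa [e0, e2] using congrFun this 1, by simpa [e0, e2] using congrFun this 3⟩
  have k' : Fq.cj S B B' (1 + B' * M * B) := by rwa [Fq.cj, cj_add i, cj_back i]
  refine cj_inj i' ?_
  rw [← cj_mul i', ← cj_mul i', eN]
  generalize B' * M * B = L at *
  have a := fun i => (mv_e0 L i).symm.trans (congrFun c0 i)
  have b := fun i => (mv_e2 L i).symm.trans (congrFun c2 i)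
  have eL : 1 + L = pz (L 0 1) 0 (lo (L 2 1)) 0 (L 2 3) (L 0 3) := by
    ext i j; fin_cases i <;> fin_cases j <;> simp [pz, lo, a, b, c1]
  have := (h.cj i).q2 (eL ▸ k') m d1 a0 d2 d3 d4
  rw [← eL, ← blX] at this
  linear_combination (norm := noncomm_ring) this

theorem l1 [Finite F] (r : Rt S N) (k : S (1 + M)) (s : M * M = 0) (v0 : v ≠ 0) (e : N *ᵥ v = 0) (e' : M *ᵥ v = 0) :
    N * M = M * N := by
  obtain ⟨Q, Q', q, rfl⟩ := h.nf r.mem r.sq r.ne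
  have q' := mul_eq_one_comm.1 q
  have r' := r.cj q
  rw [cj_back q'] at r'
  have := (h.cj q).l0 (M := Q' * M * Q) (v := Q' *ᵥ v) r' (by rwa [Fq.cj, cj_add q, cj_back q]) (by simp [cj_mul q', s])
    (fun z => v0 (by simpa [q] using congrArg (Q *ᵥ ·) z))
    (by simpa [← mul_assoc, q'] using congrArg (Q' *ᵥ ·) e) (by simpa [mul_assoc, q] using congrArg (Q' *ᵥ ·) e')
  rw [← cj_back q M, cj_mul q, cj_mul q, this]

end Nt

end CF.D4.Fq
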