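/-
Linear groups of degree four without transvections: opposite root groups.
-/
import Cfsg.Agent.D4.Q2

set_option autoImplicit false

namespace CF.D4.Fq

open Matrix CF.MaxSub.O4
open CF.MaxSub.E4 (M4 M2 mulVec4 mul4 ext4 up lo)

attribute [-simp] Matrix.mulVec_fin_two

variable {F : Type*} [Field F] [Finite F] {S : M4 F → Prop} {M N g g' Q Q' : M4 F} {a b c d A A' B C D : M2 F}
  {T T' : AddSubgroup (M2 F)}

theorem hua0 (h : Gp S) (h2 : (2 : F) ≠ 0) (da : ∀ a b c d, S (bl a b c d) → a.det = 0 → a = 0) (hA : 1 ∈ h.XS)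
    (hB : B ∈ h.YS) {v : Fin 2 → F} (v0 : v ≠ 0) {l : F} (l0 : l ≠ 0) (e : B *ᵥ v = l • v) :
    ((3 : F) = 0 ∧ l ^ 2 = -1) ∨ 1 ∈ h.YS := by
  let P (M : M2 F) := M.det = 1 ∧ ∃ g, S g ∧ ∀ x y : F, g *ᵥ vv (x • v) (y • v) =
    vv ((M 0 0 * x + M 0 1 * y) • v) ((M 1 0 * x + M 1 1 * y) • v)
  obtain ⟨U, T, hS, hT, -, k | ⟨K, -, hK⟩⟩ := l2o h2 P ⟨det_one, 1, h.one, by simp⟩ (by
      rintro M N ⟨a, g, g1, b⟩ ⟨c, k, k1, d⟩
      refine ⟨by rw [det_mul, a, c, one_mul], g * k, h.mul g1 k1, fun x y => ?_⟩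
      rw [← mulVec_mulVec, d, b]; congr 2 <;> simp [mul_apply] <;> ring) (fun _ h => h.1) one_ne_zero l0
    ⟨by simp [up], _, hA, fun s t => by simp [bl_mv, up, add_smul]⟩ ⟨by simp [lo], _, hB, fun s t => by
      simp [bl_mv, lo, add_smul, mulVec_smul, e, smul_smul, mul_comm]⟩
  · exact .inl ⟨k.1, by simpa using k.2.2⟩
  obtain ⟨-, g, g1, hg⟩ := (hT _).1 ((hK _).1 K.one_mem)
  have z {a b c d} (k : S (bl a b c d)) {y} (e : bl a b c d *ᵥ vv v 0 = vv 0 y) : a = 0 :=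
    da a b c d k (exists_mulVec_eq_zero_iff.1 ⟨v, v0, by rw [bl_mv] at e; simpa using (vv_inj e).1⟩)
  have pt (s t : F) : (bl 1 (-1) 0 1 * g) *ᵥ vv (s • v) (t • v) = vv (-t • v) ((s + t) • v) := by
    rw [← mulVec_mulVec, hg, bl_mv]; congr 1 <;> simp [lo, neg_mulVec, add_smul]
  have t1 := h.mul (neg_mem hA) g1
  obtain ⟨a, b, c, d, k⟩ := exists_bl (bl 1 (-1) 0 1 * g)
  rw [k] at pt t1
  obtain rfl := z t1 (by simpa using pt 1 0)
  obtain ⟨t, t2, i⟩ := h.inv t1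
  have p2 : t *ᵥ vv v 0 = vv v (-v) := by
    rw [show vv v 0 = bl 0 b c d *ᵥ vv v (-v) by simpa using (pt 1 (-1)).symm, mulVec_mulVec, mul_eq_one_comm.1 i, one_mulVec]
  obtain ⟨a', b', c', d', rfl⟩ := exists_bl t
  have i' := i
  rw [bl_mul, bl_one, bl_inj] at i'
  simp only [zero_mul, zero_add] at i'
  obtain rfl : d' = 0 := by rw [← one_mul d', ← mul_eq_one_comm.1 i'.1, mul_assoc, i'.2.1, mul_zero]
  have m : bl 0 b c d * bl 1 1 0 1 * bl a' b' c' 0 = bl 1 0 (c * c') 1 := by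
    rw [← blX, mul_add, add_mul, mul_one, i, ← blY]; simp [bl_mul]
  have m1 := h.conj t1 i hA
  have p3 := congrArg (· *ᵥ vv v 0) m
  simp only [← mulVec_mulVec, p2, bl_mv 1 1, bl_mv 1 0] at p3
  rw [m] at m1
  have := h.mul hA m1
  rw [bl_mul] at this
  have p4 := pt 0 (-1)
  simp at p3 p4 this
  rw [p4] at p3
  have := z this (y := -v) (by simp [bl_mv, add_mulVec, ← (vv_inj p3).2])
  exact .inr (by simpa [eq_neg_of_add_eq_zero_right this] using neg_mem (h.mY.2 m1))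

theorem hua (h : Gp S) (h2 : (2 : F) ≠ 0) (da : ∀ a b c d, S (bl a b c d) → a.det = 0 → a = 0) (hA : 1 ∈ h.XS)
    (hB : B ∈ h.YS) (b0 : B.det ≠ 0) :
    ((3 : F) = 0 ∧ (B.trace = 0 ∧ B.det = 1 ∨ B.trace ^ 2 = -4 ∧ B.det = -1)) ∨ 1 ∈ h.YS := by
  refine or_iff_not_imp_right.2 fun n => ?_
  obtain ⟨K, _, _, φ, l, m, e, e'⟩ := exists_root2 B.trace B.det
  have i := φ.injective
  have i' := Matrix.map_injective (m := Fin 2) (n := Fin 2) i
  have G : Gp fun m : M4 K => ∃ n, S n ∧ n.map φ = m := ⟨⟨1, h.one, by simp⟩, fun ⟨_, a, e⟩ ⟨_, b, e'⟩ =>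
    ⟨_, h.mul a b, by rw [Matrix.map_mul, e, e']⟩, fun ⟨_, a, e⟩ => let ⟨b, k, l⟩ := h.inv a
      ⟨_, ⟨b, k, rfl⟩, by rw [← e, ← Matrix.map_mul, l]; simp⟩⟩
  have key {l m : K} (e : l + m = φ B.trace) (e' : l * m = φ B.det) : (3 : K) = 0 ∧ l ^ 2 = -1 := by
    obtain ⟨v, v0, k⟩ := exists_mulVec_eq_zero_iff.2 (show (B.map φ - l • 1).det = 0 by
      rw [det_fin_two] at e' ⊢
      rw [trace_fin_two] at e
      simp only [map_add, map_sub, map_mul] at e e'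
      simp
      linear_combination -e' + l * e)
    refine (hua0 G (B := B.map φ) (by rw [← map_ofNat φ]; exact (map_ne_zero φ).2 h2) (fun a b c d ⟨g, g1, e⟩ k => ?_)
      ⟨_, hA, by simp [bl_map]⟩ ⟨_, hB, by simp [bl_map]⟩ v0 (left_ne_zero_of_mul (e' ▸ (map_ne_zero φ).2 b0)) (by
        rw [← sub_eq_zero, ← k, sub_mulVec, smul_mulVec, one_mulVec])).resolve_right ?_
    · obtain ⟨a', b', c', d', rfl⟩ := exists_bl g
      rw [bl_map, bl_inj] at e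
      obtain rfl := da _ _ _ _ g1 (i (by rw [RingHom.map_det, map_zero, ← k, ← e.1]; rfl))
      simp [← e.1]
    · rintro ⟨g, g1, e⟩
      obtain ⟨a', b', c', d', rfl⟩ := exists_bl g
      rw [bl_map, bl_inj] at e
      obtain ⟨e1, e2, e3, e4⟩ := e
      refine n (h.mY.2 ?_)
      convert g1 <;> refine i' ?_ <;> simp [*]
  obtain ⟨k, k1⟩ := key e e'
  obtain ⟨-, k2⟩ := key (l := m) (add_comm l m ▸ e) (mul_comm l m ▸ e')
  refine ⟨i (by simpa [map_ofNat]), ?_⟩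
  obtain rfl | rfl : m = -l ∨ m = l := by grind
  · exact .inl ⟨i (by simp [← e]), i (by rw [← e', map_one]; linear_combination -k1)⟩
  · exact .inr ⟨i (by simp [← e, map_ofNat]; linear_combination 4 * k1),
      i (by rw [← e', map_neg, map_one]; linear_combination k1)⟩

/-- More than three elements. -/
def Big (T : AddSubgroup (M2 F)) : Prop := ∃ D ∈ T, D ≠ 0 ∧ ∃ E ∈ T, E ≠ 0 ∧ E ≠ D ∧ E ≠ -D

omit [Finite F] in
theorem Big.ex (h : Big T) (B : M2 F) : ∃ D ∈ T, D ≠ 0 ∧ D ≠ B ∧ D ≠ -B := by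
  obtain ⟨D, d1, d2, E, e1, e2, e3, e4⟩ := h
  by_cases k : D = B ∨ D = -B
  · exact ⟨E, e1, e2, by rcases k with rfl | rfl <;> simp_all [eq_comm]⟩
  · exact ⟨D, d1, d2, not_or.1 k⟩

omit [Finite F] in
theorem Big.map (h : Big T) (f : M2 F →+ M2 F) (i : Function.Injective f) (k : ∀ D ∈ T, f D ∈ T') : Big T' :=
  let ⟨D, d1, d2, E, e1, e2, e3, e4⟩ := h
  ⟨_, k D d1, by rwa [Ne, map_eq_zero_iff f i], _, k E e1, by rwa [Ne, map_eq_zero_iff f i], i.ne e3,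
    map_neg f D ▸ i.ne e4⟩

/-- Two opposite large root groups. -/
structure Op (S : M4 F → Prop) : Prop extends Nt S where
  bx : Big toGp.XS
  bY : Big toGp.YS

namespace Op
variable (h : Op S)
include h

omit [Finite F] in
theorem rtX (m : A ∈ h.XS) (n : A ≠ 0) : Rt S (bl 0 A 0 0) :=
  let ⟨D, d1, d2, d3, d4⟩ := h.bx.ex A
  ⟨blX (A := A) ▸ m, by simp [bl_mul, bl_zero], fun e => n (bl_inj.1 (e.trans bl_zero)).2.1, bl 0 D 0 0, blX (A := D) ▸ d1,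
    by simp [bl_mul, bl_zero], by simp [bl_mul, bl_zero], fun e => d2 (bl_inj.1 (e.trans bl_zero)).2.1,
    fun e => d3 (bl_inj.1 e).2.1, fun e => d4 (by
      rw [eq_neg_iff_add_eq_zero, bl_add, bl_zero, bl_inj] at e; exact eq_neg_of_add_eq_zero_left e.2.1)⟩

omit [Finite F] in
theorem rtY (m : A ∈ h.YS) (n : A ≠ 0) : Rt S (bl 0 0 A 0) :=
  let ⟨D, d1, d2, d3, d4⟩ := h.bY.ex A
  ⟨blY (A := A) ▸ m, by simp [bl_mul, bl_zero], fun e => n (bl_inj.1 (e.trans bl_zero)).2.2.1, bl 0 0 D 0, blY (A := D) ▸ d1,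
    by simp [bl_mul, bl_zero], by simp [bl_mul, bl_zero], fun e => d2 (bl_inj.1 (e.trans bl_zero)).2.2.1,
    fun e => d3 (bl_inj.1 e).2.2.1, fun e => d4 (by
      rw [eq_neg_iff_add_eq_zero, bl_add, bl_zero, bl_inj] at e; exact eq_neg_of_add_eq_zero_left e.2.2.1)⟩

theorem hu0 (hA : 1 ∈ h.XS) (n : 1 ∉ h.YS) (hB : B ∈ h.YS) (b0 : B ≠ 0) :
    (3 : F) = 0 ∧ (B.trace = 0 ∧ B.det = 1 ∨ B.trace ^ 2 = -4 ∧ B.det = -1) := by
  obtain ⟨ι, β, hβ⟩ : ∃ (ι : Polynomial F →+* M2 F) (β : Polynomial F), ι β = B :=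
    ⟨(Polynomial.aeval B).toRingHom, .X, by simp⟩
  have iv : ∀ a b c d, a * d - b * c = 1 → bl (ι a) (ι b) (ι c) (ι d) * bl (ι d) (ι (-b)) (ι (-c)) (ι a) = 1 :=
    fun a b c d e => by
      simp only [bl_mul, bl_one, bl_inj, ← map_mul, ← map_add]
      rw [← map_one ι, ← map_zero ι]
      refine ⟨?_, ?_, ?_, ?_⟩ <;> congr 1 <;> grind
  have G : Gp fun m => S m ∧ ∃ a b c d, m = bl (ι a) (ι b) (ι c) (ι d) ∧ a * d - b * c = 1 :=
    ⟨⟨h.one, 1, 0, 0, 1, by simp [bl_one], by simp⟩, by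
    rintro _ _ ⟨k, a, b, c, d, rfl, e⟩ ⟨k', a', b', c', d', rfl, e'⟩
    exact ⟨h.mul k k', a * a' + b * c', a * b' + b * d', c * a' + d * c', c * b' + d * d', by simp [bl_mul], by grind⟩, by
    rintro _ ⟨k, a, b, c, d, rfl, e⟩
    exact ⟨_, ⟨h.inv' k (iv _ _ _ _ e), d, -b, -c, a, rfl, by grind⟩, iv _ _ _ _ e⟩⟩
  have u := mt (h.detY hB) b0
  have u' := (isUnit_iff_isUnit_det _).2 (Ne.isUnit u)
  refine (hua G h.two ?_ ⟨hA, 1, 1, 0, 1, by simp, by simp⟩ ⟨hB, 1, 0, β, 1, by simp [hβ], by simp⟩ u).resolve_right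
    fun k => n k.1
  rintro _ _ _ _ ⟨k, a, b, c, d, q, e⟩ z
  obtain ⟨rfl, rfl, rfl, rfl⟩ := bl_inj.1 q
  obtain ⟨y, y0, hy⟩ := exists_mulVec_eq_zero_iff.2 z
  have m : bl (ι a) (ι b) (ι c) (ι d) * bl 0 1 0 0 * bl (ι d) (ι (-b)) (ι (-c)) (ι a) =
      bl (ι (-(a * c))) (ι (a * a)) (ι (-(c * c))) (ι (c * a)) := by simp [bl_mul]
  have := h.l1 (h.rtY hB b0) (M := bl (ι (-(a * c))) (ι (a * a)) (ι (-(c * c))) (ι (c * a))) (v := vv 0 y)
    (by rw [← m, ← cj_add (iv _ _ _ _ e), blX]; exact h.conj k (iv _ _ _ _ e) hA)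
    (by rw [← m, cj_mul (iv _ _ _ _ e), bl_mul 0]; simp [← bl_zero]) (fun q => y0 (vv_inj (q.trans vv0.symm)).2)
    (by simp [bl_mv, vv0]) (by simp [bl_mv, ← mulVec_mulVec, hy, vv0])
  simp only [bl_mul, bl_inj, zero_mul, mul_zero, add_zero, zero_add] at this
  have e1 := u'.mul_left_eq_zero.1 this.1.symm
  have e3 : ι (a * c) = 0 := u'.mul_left_eq_zero.1 ((smul_eq_zero_iff_right h.two).1 (by
    have e2 := this.2.2.1
    rw [← hβ, ← map_mul, ← map_mul, ← sub_eq_zero, ← map_sub, ← neg_eq_zero, ← map_neg] at e2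
    rw [two_smul, ← hβ, ← map_mul, ← map_add, ← e2]; congr 1; ring))
  rw [show a = a * a * d - a * c * b by linear_combination -a * e, map_sub, map_mul, map_mul _ (a * c), e1, e3]; simp

theorem hu1 (hA : 1 ∈ h.XS) : 1 ∈ h.YS := by
  by_contra n
  obtain ⟨D, hD, d0, D', hD', d1, d2, d3⟩ := h.bY
  have k1 := h.hu0 hA n hD d0
  have k2 := h.hu0 hA n hD' d1
  have k3 := h.hu0 hA n (add_mem hD' hD) (mt eq_neg_of_add_eq_zero_left d3)
  have k4 := h.hu0 hA n (sub_mem hD' hD) (sub_ne_zero.2 d2)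
  have : (D' + D).det + (D' - D).det = 2 * D.det + 2 * D'.det := by simp [det_fin_two]; ring
  have h2 := h.two
  simp only [trace_add, trace_sub] at k3 k4
  generalize D.det = x, D'.det = y, D.trace = s, D'.trace = t, (D' + D).det = u, (D' - D).det = v at *
  grind

theorem hu (hA : A ∈ h.XS) (a0 : A ≠ 0) : A⁻¹ ∈ h.YS := by
  have u := Ne.isUnit (mt (h.detX hA) a0)
  obtain ⟨_⟩ := ((isUnit_iff_isUnit_det _).2 u).nonempty_invertible
  have e : bl 1 0 0 A⁻¹ * bl 1 0 0 A = 1 := by simp [bl_mul, bl_one]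
  have x : ∀ {D}, D ∈ (h.toNt.cj e).XS ↔ D * A ∈ h.XS := by simp [Gp.mX, cj, bl_mul]
  have y : ∀ {D}, D ∈ (h.toNt.cj e).YS ↔ A⁻¹ * D ∈ h.YS := by simp [Gp.mY, cj, bl_mul]
  simpa using y.1 (hu1 ⟨h.toNt.cj e, h.bx.map (AddMonoidHom.mulRight A⁻¹) (fun _ _ k => by simpa using congrArg (· * A) k)
    fun D k => x.2 (by simpa), h.bY.map (AddMonoidHom.mulLeft A) (fun _ _ k => by simpa using congrArg (A⁻¹ * ·) k)
      fun D k => y.2 (by simpa)⟩ (x.2 (by simpa)))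

end Op

end CF.D4.Fq
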