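/-
The group `2.A₇` in dimension four.
-/
import Cfsg.Agent.MaxSub.InvForm
import Cfsg.Agent.MaxSub.Tv
import Cfsg.Agent.Known.Pres.Carm
import Mathlib.Algebra.QuadraticAlgebra.Basic

set_option autoImplicit false

namespace CF.D4Z

open Matrix Cfsg Cfsg.Geo CF.MaxSub Subgroup
open scoped MatrixGroups

/-- The integers of `ℚ(√-7)`. -/
abbrev R7 := QuadraticAlgebra ℤ (-2) (-1)

/-- The generators. -/
def xs (n : Fin 5) : Matrix (Fin 4) (Fin 4) R7 := of fun i j =>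
  let l : List ℤ := ![
    [-1, -1, -1, 1, -1, -1, -1, 0, 0, 0, 0, 0, -1, 0, 0, 0, 0, 0, 1, 0, -1, 0, 0, 0, -1, 0, 1, 1, 0, 0, 0, 1],
    [-2, -1, 0, 0, 0, 0, 1, 2, 0, 0, -1, 0, -1, 0, 0, -1, 0, 1, 1, 0, 0, 0, 2, 0, -1, 0, 0, 0, 0, 0, 1, 1],
    [-1, -1, -2, 0, 0, -1, -1, 1, 0, 0, 0, 0, -1, 0, 1, 0, -1, 0, 1, 1, -1, 0, 1, 1, -1, 0, 0, 1, 0, 0, 0, 1],
    [0, -1, -1, -1, 1, 0, -2, 0, 0, 0, -1, 0, -1, -1, 1, 0, -1, 0, 0, 0, 0, 0, 1, 1, -1, -1, -1, 0, 0, 0, -1, 1],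
    [-1, -1, 1, 1, -1, 0, -2, 1, 0, 0, -1, -1, 0, 0, 1, 0, -1, 0, 1, 0, 0, 1, 1, 1, 0, 0, 1, 0, 0, 0, 0, 1]] n
  ⟨l.getD (8 * i + 2 * j) 0, l.getD (8 * i + 2 * j + 1) 0⟩

section
variable {R : Type*} [CommRing R] (b : R)

/-- The element of order seven. -/
def U0 (c : R) : Matrix (Fin 4) (Fin 4) R := !![1, 0, 0, c; 0, 0, 0, 1; 0, 1, 0, 1 + b; 0, 0, 1, b]

/-- The element of order four. -/
def S0 : Matrix (Fin 4) (Fin 4) R := !![0, -1, 1, -1; 1, 0, 1 + b, -1; 0, 0, b, -1 - b; 0, 0, -1, -b]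

/-- The change of lattice. -/
def D0 : Matrix (Fin 4) (Fin 4) R := !![b, 1, 1, 1; 0, 1, 0, 0; 0, 0, 1, 0; 0, 0, 0, 1]

/-- The invariant form. -/
def H0 : Matrix (Fin 4) (Fin 4) R :=
  !![1 + 2 * b, -2, -2, -2; 2, 1 + 2 * b, 1 + b, 1 + b; 2, b, 1 + 2 * b, 1 + b; 2, b, b, 1 + 2 * b]

end

theorem xs_rel : (∀ i, xs i * (xs i * xs i) = 1) ∧ (∀ i j, i ≠ j → xs i * xs j * (xs i * xs j) = -1) ∧
    (∀ i, (xs i).det = 1 ∧ (xs i)ᵀ * H0 ⟨0, 1⟩ * (xs i).map star = H0 ⟨0, 1⟩) ∧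
    U0 ⟨0, 1⟩ 1 * D0 ⟨0, 1⟩ = D0 ⟨0, 1⟩ * (xs 0 * xs 1 * xs 1 * xs 3 * xs 2 * xs 4) ∧
    S0 ⟨0, 1⟩ * D0 ⟨0, 1⟩ = D0 ⟨0, 1⟩ * (xs 3 * xs 2) ∧
    (xs 0 * xs 1 * xs 2) ^ 5 = -1 ∧ (xs 0 * xs 1 * xs 2) 1 3 = 1 := by decide +kernel

variable {F : Type*} [Field F]

theorem exists_a7 {b : F} (hb : b ^ 2 + b + 2 = 0) : ∃ K ≤ specialLinear (Fin 4) F,
    Nat.card (K.map (QuotientGroup.mk' (scalars _ F))) ≤ 2520 ∧
    (∃ y ∈ K, y ^ 5 ∈ scalars _ F ∧ y ∉ scalars _ F) ∧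
    (∃ U ∈ K, U0 b 1 * D0 b = D0 b * U.val) ∧ (∃ S ∈ K, S0 b * D0 b = D0 b * S.val) ∧
    ∀ σ : F →+* F, σ b = -1 - b → ∀ g ∈ K, g.valᵀ * H0 b * g.val.map σ = H0 b := by
  obtain ⟨r1, r2, r3, r4, r5, r6, r7⟩ := xs_rel
  let j : R7 →+* F := (QuadraticAlgebra.lift ⟨b, by simp; linear_combination hb⟩).toRingHom
  have hj : ∀ z, j z = z.re + z.im * b := fun z => show z.re • (1 : F) + z.im • b = _ by simp
  have j1 : j ⟨0, 1⟩ = b := by simp [hj]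
  let J := j.mapMatrix (m := Fin 4)
  let x : Fin 5 → GL (Fin 4) F := fun i => ⟨J (xs i), J (xs i * xs i), by rw [← map_mul, r1, map_one],
    by rw [← map_mul, mul_assoc, r1, map_one]⟩
  have hx : ∀ i, (x i).val = J (xs i) := fun _ => rfl
  have m : ∀ i, x i ∈ closure (Set.range x) := fun i => subset_closure ⟨i, rfl⟩
  have sc : ∀ {g : GL (Fin 4) F}, g.val = J (-1) → g ∈ scalars _ F := fun h =>
    (mem_scalars_iff' _).2 ⟨-1, by simp [h]⟩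
  have d0 : J (D0 ⟨0, 1⟩) = D0 b := by ext i k; fin_cases i <;> fin_cases k <;> simp [J, D0, j1]
  have h0 : J (H0 ⟨0, 1⟩) = H0 b := by ext i k; fin_cases i <;> fin_cases k <;> simp [J, H0, j1, map_ofNat]
  refine ⟨closure (Set.range x), (Subgroup.closure_le _).2 ?_, ?_,
    ⟨x 0 * x 1 * x 2, by simp only [mul_mem, m], sc ?_, fun h => ?_⟩,
    ⟨x 0 * x 1 * x 1 * x 3 * x 2 * x 4, by apply_rules [Subgroup.mul_mem], ?_⟩, ⟨x 3 * x 2, mul_mem (m _) (m _), ?_⟩,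
    fun σ hσ g hg => ?_⟩
  · rintro _ ⟨i, rfl⟩
    exact mem_specialLinear.2 ((j.map_det _).symm.trans (by rw [(r3 i).1, map_one]))
  · have := (Known.Pres.CarmRel.card_le (T := Finset.univ) (y := QuotientGroup.mk' (scalars _ F) ∘ x)
      ⟨fun i _ => by rw [Function.comp, ← map_pow, show x i ^ 3 = 1 from (pow_three _).trans (Units.ext (by
        simp only [Units.val_mul, hx, ← map_mul, r1, map_one, Units.val_one])),
        map_one], fun i _ k _ h => (QuotientGroup.eq_one_iff ((x i * x k) ^ 2)).2 (sc (by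
          rw [sq, ← r2 i k h]; simp only [Units.val_mul, hx, map_mul]))⟩).2
    rw [Finset.coe_univ, Set.image_univ, Set.range_comp, ← MonoidHom.map_closure] at this
    exact Nat.le_of_mul_le_mul_left (this.trans_eq rfl) two_pos
  · rw [← r6]; simp only [Units.val_mul, Units.val_pow_eq_pow_val, hx, map_mul, map_pow]
  · obtain ⟨c, hc⟩ := (mem_scalars_iff' _).1 h
    have := congrFun₂ hc 1 3
    simp only [Units.val_mul, hx, ← map_mul] at this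
    simp [J, r7] at this
  · simp only [Units.val_mul, hx, ← map_mul, ← d0, ← r4]
    rw [map_mul]; congr 1
    ext i k; fin_cases i <;> fin_cases k <;> simp [J, U0, j1]
  · simp only [Units.val_mul, hx, ← map_mul, ← d0, ← r5]
    rw [map_mul]; congr 1
    ext i k; fin_cases i <;> fin_cases k <;> simp [J, S0, j1, -QuadraticAlgebra.neg_mk]
  induction hg using closure_induction with
  | mem g hg =>
    obtain ⟨i, rfl⟩ := hg
    have := congrArg J (r3 i).2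
    rw [map_mul, map_mul, h0] at this
    refine .trans (congrArg _ (Matrix.ext fun a c => ?_)) this
    simp [hx, J, hj, hσ]
    ring
  | one => simp
  | mul g k _ _ a c => rw [Units.val_mul, transpose_mul, Matrix.map_mul, mul_assoc, mul_assoc, ← mul_assoc (H0 b),
      ← mul_assoc g.valᵀ, ← mul_assoc g.valᵀ, a, ← mul_assoc, c]
  | inv g _ a =>
    nth_rw 1 [← a]
    rw [← mul_assoc, ← mul_assoc, ← transpose_mul, mul_assoc, ← Matrix.map_mul]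
    simp

end CF.D4Z
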