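/-
The representations of degree four of `SL₂(7)`.
-/
import Cfsg.Agent.D4.Z1
import Cfsg.Agent.Classical.Linear

set_option autoImplicit false

namespace CF.D4Z

open Matrix Cfsg Cfsg.Geo CF.MaxSub Subgroup Polynomial
open scoped MatrixGroups

variable {F : Type*} [Field F]

theorem chi4 {A : GL (Fin 4) F} (h : A.val.det = 1) : ∃ e, A.val.charpoly =
    X ^ 4 - C A.val.trace * X ^ 3 + C e * X ^ 2 - C A⁻¹.val.trace * X + 1 := by
  have d : A.val.charpoly.natDegree = 4 := by simp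
  have c4 := A.val.charpoly_monic.coeff_natDegree
  have c3 := trace_eq_neg_charpoly_coeff A.val
  have c0 := det_eq_sign_charpoly_coeff A.val
  have c1 := congrArg (coeff · 1) (charpoly_inv A⁻¹.val A⁻¹.isUnit)
  have : A⁻¹.val.det = 1 := by simp [h]
  rw [this, ← coe_units_inv, inv_inv] at c1
  rw [d] at c4
  refine ⟨A.val.charpoly.coeff 2, (as_sum_range_C_mul_X_pow' _ (d.trans_lt (by decide : 4 < 5))).trans ?_⟩
  norm_num [h] at c0 c1 c3
  simp only [Finset.sum_range_succ, c4, c3, c1, ← c0]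
  simp
  ring

/-- An element of order seven. -/
def u7 : SL(2, ZMod 7) := ⟨!![1, 1; 0, 1], by decide⟩

/-- An element of order four. -/
def s7 : SL(2, ZMod 7) := ⟨!![0, 1; -1, 0], by decide⟩

/-- An element of order three. -/
def k7 : SL(2, ZMod 7) := ⟨!![2, 0; 0, 4], by decide⟩

theorem tv7 : ∀ i j : Fin 2, i ≠ j → ∀ c : ZMod 7, transvection i j c = (u7 ^ c.val).1 ∨
    transvection i j c = (s7 * u7 ^ (-c).val * s7 ^ 3).1 := by decide +kernel

/-- Relations in `SL₂(7)`. -/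
structure Rel {G : Type*} [Group G] (u s k z : G) : Prop where
  gen : ∀ {H : Subgroup G}, u ∈ H → s ∈ H → H = ⊤
  rel : u ^ 7 = 1 ∧ u * k = k * u ^ 2 ∧ z * z = 1 ∧ s * s = 1 * z ∧ s * (u * s) = u ^ 6 * s * z * u ^ 6 ∧
    s * (u ^ 2 * s) = u ^ 3 * s * z * k * u ^ 3 ∧ s * (u ^ 3 * s) = u ^ 2 * s * k * k * u ^ 2

theorem rel7 : Rel u7 s7 k7 (-1) := by
  refine ⟨fun {H} a b => ?_, by decide +kernel⟩
  have := Fact.mk Nat.prime_seven
  refine Classical.eq_top_of_transvection_mem H fun i j h c => ?_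
  have k : ∀ g ∈ H, transvection i j c = g.1 → SpecialLinearGroup.transvection h c ∈ H := fun g a e =>
    (Subtype.ext e : SpecialLinearGroup.transvection h c = g) ▸ a
  exact (tv7 i j h c).elim (k _ (pow_mem a _)) (k _ (mul_mem (mul_mem b (pow_mem a _)) (pow_mem b _)))

theorem chi7 (h7 : (7 : F) ≠ 0) {A K : GL (Fin 4) F} (h : A.val.det = 1) (a7 : A ^ 7 = 1) (a1 : A ≠ 1)
    (k : A * K = K * A ^ 2) : ∃ b : F, b ^ 2 + b + 2 = 0 ∧ A.val.trace = b + 1 ∧ A⁻¹.val.trace = -b ∧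
      A.val.charpoly = (X - 1) * (X ^ 3 - C b * X ^ 2 - C (1 + b) * X - 1) := by
  obtain ⟨e, χ⟩ := chi4 h
  have c := A.val.aeval_self_charpoly
  let p : ℕ → F := fun n => (A.val ^ n).trace
  have k' : ∀ n, A ^ (2 * n) = K⁻¹ * A ^ n * K⁻¹⁻¹ := fun n => by
    rw [pow_mul, ← conj_pow, mul_assoc, inv_inv, k, inv_mul_cancel_left]
  have p2 : ∀ n, p (2 * n) = p n := fun n => by
    simp only [p, ← Units.val_pow_eq_pow_val, k']
    exact trace_units_conj ..
  have p7 : ∀ n, p (n + 7) = p n := fun n => by simp only [p, ← Units.val_pow_eq_pow_val, pow_add, a7, mul_one]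
  have p6 : A⁻¹.val.trace = p 6 := by
    rw [← eq_inv_of_mul_eq_one_left (a := A ^ 6) (by rwa [← pow_succ]), Units.val_pow_eq_pow_val]
  have p1 : A.val.trace = p 1 := by simp [p]
  have p0 : p 0 = 4 := by simp [p]
  have q : ∀ n, p (n + 4) - p 1 * p (n + 3) + e * p (n + 2) - p 6 * p (n + 1) + p n = 0 := fun n => by
    have := congrArg (fun x => (A.val ^ n * x).trace) c
    rw [χ, p6, p1] at this
    simpa [mul_add, mul_sub, ← pow_add, ← pow_succ, ← Algebra.smul_def] using this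
  have q0 := q 0
  have q1 := q 1
  have q3 := q 3
  have q4 := q 4
  have q6 := q 6
  have e5 : p 5 = p 3 := by rw [← p7 5, p2 6, p2 3]
  simp only [zero_add, Nat.reduceAdd, p7 0, p7 1, p7 2, p7 3, e5, p2 1, p2 2, p2 3, p0] at q0 q1 q3 q4 q6
  rw [p2 3] at p6
  rw [p1, p6] at χ ⊢
  by_cases n : p 1 = p 3
  · refine absurd (Units.val_eq_one.1 ?_) a1
    have a7 : aeval A.val (X ^ 7 - 1 : F[X]) = 0 := by simp [← Units.val_pow_eq_pow_val, a7]
    have c2 : aeval A.val (A.val.charpoly.comp (X ^ 2)) = 0 := by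
      have : (A.val ^ 2).charpoly = A.val.charpoly := by
        simpa [charpoly_units_conj'] using congrArg (·.val.charpoly) (k' 1)
      rw [aeval_comp, map_pow, aeval_X, ← this, aeval_self_charpoly]
    have k : ∀ {x : F} (f g r : F[X]), x ≠ 0 → C x * (X - 1) = f * (X ^ 7 - 1) + g * A.val.charpoly +
        r * A.val.charpoly.comp (X ^ 2) → A.val = 1 := fun {x} f g r n e => by
      have := congrArg (aeval A.val) e
      simpa [a7, c, c2, ← Algebra.smul_def, n, sub_eq_zero] using this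
    rw [n] at q0 q1 χ
    rw [show p 3 = 4 by linear_combination q1 - q0] at χ q1
    by_cases h2 : (2 : F) = 0
    · have h2' : (2 : F[X]) = 0 := by rw [← map_ofNat C, h2, map_zero]
      rw [show (4 : F) = 0 by linear_combination 2 * h2] at χ
      by_cases e0 : e = 0
      · exact k (-X) (X ^ 4 + 1) 0 one_ne_zero (by simp [χ, e0]; linear_combination (-X ^ 4 - 1) * h2')
      by_cases e1 : e = 1
      · exact k 1 (X - X ^ 3) 0 one_ne_zero (by simp [χ, e1]; ring)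
      refine k (C e * (1 - C e) * (X - 1)) ((X - 1) * X ^ 3 * (X ^ 4 + C e * X ^ 2 + 1)) ((1 - X) * X ^ 3)
        (mul_ne_zero e0 (sub_ne_zero.2 e1)) ?_
      simp [χ]
      linear_combination (1 - X) * X ^ 3 * (C e * X ^ 6 + X ^ 4 + C e * X ^ 2) * h2'
    · obtain rfl : e = 6 := mul_left_cancel₀ (pow_ne_zero 2 h2) (by linear_combination q1)
      refine k (1 - 3 * (X - 1) + 4 * (X - 1) ^ 2) (-14 - 56 * (X - 1) - 84 * (X - 1) ^ 2 - 64 * (X - 1) ^ 3 -
        25 * (X - 1) ^ 4 - 4 * (X - 1) ^ 5) 0 h7 ?_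
      simp only [χ, map_ofNat]
      ring
  have e1 : e = -1 := mul_left_cancel₀ (sub_ne_zero.2 n) (by linear_combination q0 - q3)
  subst e1
  have e2 : p 1 = -p 3 + 1 := mul_left_cancel₀ (sub_ne_zero.2 n) (by linear_combination q4 - q6)
  refine ⟨-p 3, by rw [e2] at q4; linear_combination -q4, e2, (neg_neg _).symm, ?_⟩
  simp only [χ, e2, map_add, map_neg, map_one]
  ring

theorem cols {A B : Matrix (Fin 4) (Fin 4) F} {v : Fin 4 → Fin 4 → F} (h : ∀ k, A *ᵥ v k = ∑ j, B j k • v j) :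
    A * (of v)ᵀ = (of v)ᵀ * B := Matrix.ext fun i k => by
  simpa [mul_apply, mulVec, dotProduct, mul_comm] using congrFun (h k) i

theorem fix_line (h7 : (7 : F) ≠ 0) {A : Matrix (Fin 4) (Fin 4) F} {b : F} (hb : b ^ 2 + b + 2 = 0)
    (χ : A.charpoly = (X - 1) * (X ^ 3 - C b * X ^ 2 - C (1 + b) * X - 1)) :
    ∃ e ≠ 0, A *ᵥ e = e ∧ ∀ v, A *ᵥ v = v → ∃ c : F, c • e = v := by
  have m : ∀ v, v ∈ Module.End.eigenspace (toLin' A) 1 ↔ A *ᵥ v = v := fun v => by simp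
  obtain ⟨e, e1, e0⟩ := ((Module.End.hasEigenvalue_iff_isRoot_charpoly (toLin' A) 1).2
    (by simp [χ])).exists_hasEigenvector
  obtain ⟨w, hw⟩ := finrank_le_one_iff.1 ((LinearMap.finrank_eigenspace_le (toLin' A) 1).trans
    (not_lt.1 fun h => h7 (by
      rw [charpoly_toLin', one_lt_rootMultiplicity_iff_isRoot (charpoly_monic _).ne_zero, χ] at h
      have := h.2
      simp at this
      linear_combination 4 * hb + (2 * b + 1) * this)))
  obtain ⟨c, hc⟩ := hw ⟨e, e1⟩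
  refine ⟨w, fun k => e0 ?_, (m _).1 w.2, fun v hv => (hw ⟨v, (m v).2 hv⟩).imp fun _ => congrArg Subtype.val⟩
  simpa [k] using congrArg Subtype.val hc.symm

theorem solve7 {b c ε μ : F} (hb : b ^ 2 + b + 2 = 0) (ε2 : ε ^ 2 = 1) (l0 : ε * (b * μ * c - (1 + b) * c + 1) = 0)
    (l2 : ε * b * (1 + b) * (μ - 1) = 0) (l3 : ε * (b ^ 2 * μ + 1 + b) - μ ^ 2 = 0) : μ = 1 ∧ ε = -1 ∧ c = 1 := by
  obtain rfl : μ = 1 := by
    by_cases h2 : (2 : F) = 0 <;> grind
  obtain rfl : ε = -1 := by linear_combination hb * ε - l3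
  exact ⟨rfl, rfl, by linear_combination l0⟩

variable {G : Type*} [Group G] {u s k z : G} (r : Rel u s k z) {ρ : G →* GL (Fin 4) F}
include r

theorem Rel.unit (i : Irr ρ.range) {Y U S : Matrix (Fin 4) (Fin 4) F} (h0 : Y ≠ 0) (h1 : (ρ u).val * Y = Y * U)
    (h2 : (ρ s).val * Y = Y * S) : IsUnit Y := by
  have k : ∀ {g : GL (Fin 4) F} {U}, g.val * Y = Y * U → g ∈ subspaceStabilizer (LinearMap.range Y.mulVecLin) :=
    fun {g U} h => mem_subspaceStabilizer_of_mapsTo (by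
      rintro _ ⟨v, rfl⟩
      exact ⟨U *ᵥ v, by simp [h]⟩)
  rcases i (LinearMap.range Y.mulVecLin) (by
    rintro _ ⟨g, rfl⟩ v
    exact ((r.gen (H := (subspaceStabilizer _).comap ρ) (k h1) (k h2)).ge (mem_top g) v).1) with e | e
  · exact absurd (ext_of_mulVec_single fun i => Eq.trans (e.le ⟨_, rfl⟩) (zero_mulVec _).symm) h0
  · exact mulVec_surjective_iff_isUnit.1 (LinearMap.range_eq_top.1 e)

theorem Rel.nf (h7 : (7 : F) ≠ 0) (hρ : (ρ u).val.det = 1) (h1 : ρ u ≠ 1) (hs : ρ z ∈ scalars _ F)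
    (i : Irr ρ.range) : ∃ b : F, b ^ 2 + b + 2 = 0 ∧ (ρ u).val.trace = b + 1 ∧ (ρ u)⁻¹.val.trace = -b ∧
      ∀ U S : GL (Fin 4) F, U0 b 1 * D0 b = D0 b * U.val → S0 b * D0 b = D0 b * S.val →
        ∃ Y : GL (Fin 4) F, ρ u = Y * U * Y⁻¹ ∧ ρ s = Y * S * Y⁻¹ := by
  obtain ⟨u7, uk, zz, s0, s1, s2, s3⟩ := r.rel
  obtain ⟨b, hb, t1, t2, χ⟩ := chi7 h7 (K := ρ k) hρ (by rw [← map_pow, u7, map_one]) h1
    (by rw [← map_pow, ← map_mul, uk, map_mul])
  refine ⟨b, hb, t1, t2, fun U S a1 a2 => ?_⟩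
  obtain ⟨e, e0, e1, e2⟩ := fix_line h7 hb χ
  let f : G → Fin 4 → F := fun g => (ρ g).val *ᵥ e
  have fm : ∀ g h, (ρ g).val *ᵥ f h = f (g * h) := fun g h => by simp [f]
  have f1 : f 1 = e := by simp [f]
  have fu : ∀ g (n : ℕ), f (g * u ^ n) = f g := fun g n => by
    induction n with
    | zero => simp
    | succ n h => rw [← h, pow_succ, ← mul_assoc, ← fm, show f u = e from e1]
  obtain ⟨ε, hε⟩ := (mem_scalars_iff' _).1 hs
  have ε2 : ε ^ 2 = 1 := by
    have := congrArg Units.val (map_mul ρ z z)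
    simpa [zz, hε, smul_smul, sq, eq_comm] using congrFun₂ this 0 0
  obtain ⟨μ, hμ⟩ := e2 (f k) (by rw [fm, uk, fu])
  obtain ⟨c, hc⟩ := e2 (f (u ^ 3 * s) - b • f (u ^ 2 * s) - (1 + b) • f (u * s) - f s) (by
    have := congrArg (· *ᵥ f s) (ρ u).val.aeval_self_charpoly
    rw [χ, map_mul, ← mulVec_mulVec] at this
    simpa [sub_mulVec, ← Algebra.smul_def, smul_mulVec, ← fm, sub_eq_zero, -map_add] using this)
  have fk : ∀ g, f (g * k) = μ • f g := fun g => by rw [← fm, ← hμ, mulVec_smul]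
  have fn : ∀ g, f (g * z) = ε • f g := fun g => by simp [f, hε, smul_mulVec]
  have fc : ∀ g, f (g * (u ^ 3 * s)) = b • f (g * (u ^ 2 * s)) + (1 + b) • f (g * (u * s)) + f (g * s) +
      c • f g := fun g => by
    have := congrArg ((ρ g).val *ᵥ ·) hc
    simp only [mulVec_sub, mulVec_smul, fm] at this
    rw [show f g = _ from rfl, this]; abel
  have r0 := fc 1
  have r1 := fc (u ^ 6)
  have r2 := fc s
  have p : ∀ n, u ^ 6 * u ^ (n + 1) = u ^ n := fun n => by rw [← pow_add, add_comm n, ← add_assoc, pow_add, u7, one_mul]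
  rw [← one_mul (u ^ 6), fu, one_mul, ← mul_assoc, ← mul_assoc, ← mul_assoc, p, p, ← pow_succ, u7, pow_one,
    one_mul] at r1
  simp only [s0, s1, s2, s3, fu, fk, fn] at r2
  simp only [one_mul] at r0
  replace r1 : f (u ^ 6 * s) = f (u ^ 2 * s) - b • f (u * s) - (1 + b) • f s - c • f 1 := by
    rw [r1]; abel
  let v : Fin 4 → Fin 4 → F := ![f 1, f s, f (u * s), f (u ^ 2 * s)]
  have c1 : (ρ u).val * (of v)ᵀ = (of v)ᵀ * U0 b c := cols fun k => by
    fin_cases k <;> simp [v, U0, fm, Fin.sum_univ_four, ← mul_assoc, ← sq, ← pow_succ', r0]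
    · exact e1.trans f1.symm
    · module
  have c2 : (ρ s).val * (of v)ᵀ = (of v)ᵀ * !![0, ε, -ε * c, ε * μ * c; 1, 0, -ε * (1 + b), ε * μ;
      0, 0, -ε * b, ε * μ * (1 + b); 0, 0, ε, ε * μ * b] := cols fun k => by
    fin_cases k <;> simp [v, fm, Fin.sum_univ_four, s0, s1, s2, fu, fk, fn, r0, r1, -one_mul] <;> module
  have un := r.unit i (fun h => e0 (f1 ▸ funext fun j => congrFun₂ h j 0)) c1 c2
  have l : ∀ g : Fin 4 → F, ∑ i, g i • v i = 0 → ∀ i, g i = 0 :=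
    Fintype.linearIndependent_iff.1 (linearIndependent_cols_iff_isUnit.2 un)
  replace l := l ![ε * (b * μ * c - (1 + b) * c + 1), ε * (b * μ - (1 + b) ^ 2) + c, ε * b * (1 + b) * (μ - 1),
      ε * (b ^ 2 * μ + 1 + b) - μ ^ 2] (by
        rw [r0, r1] at r2
        rw [Fin.sum_univ_four, ← sub_eq_zero.2 r2.symm]
        simp only [cons_val, v]
        module)
  obtain ⟨rfl, rfl, rfl⟩ := solve7 hb ε2 (l 0) (l 2) (l 3)
  replace c1 : (ρ u).val * ((of v)ᵀ * D0 b) = (of v)ᵀ * D0 b * U := by rw [← mul_assoc, c1, mul_assoc, a1, mul_assoc]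
  replace c2 : (ρ s).val * ((of v)ᵀ * D0 b) = (of v)ᵀ * D0 b * S := by
    rw [← mul_assoc, c2, mul_assoc _ _ S.val, ← a2, mul_assoc]
    congr 2
    simp [S0]; ring
  obtain ⟨Y, hY⟩ := r.unit i (fun h => by simpa [D0] using congrFun₂ (un.mul_right_eq_zero.1 h) 1 1) c1 c2
  rw [← hY] at c1 c2
  exact ⟨Y, eq_mul_inv_iff_mul_eq.2 (Units.ext c1), eq_mul_inv_iff_mul_eq.2 (Units.ext c2)⟩

end CF.D4Z
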